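import Cfsg.Agent.Lib.KnownSimple.ChevTables

/-! Root characters and the chain tables of the Chevalley data. -/

set_option autoImplicit false

namespace Cfsg.Agent.Lib.KnownSimple

open Cfsg Cfsg.Lie

variable {F : Type*} [Field F]

/-- A root character is multiplicative along the lists of the chain table. -/
theorem char_of_chain_list (D : ChevalleyDatum) {χ : ℕ → Fˣ} (hχ : D.IsRootCharacter χ) {r : ℕ}
    (hr : r < D.nroots) :
    ∀ (l : List (ℕ × ℤ)) (cur : ℕ), cur < D.nroots → chainChkList D r cur l = true →
      ∀ q ∈ l.zipIdx, χ q.1.1 = χ r ^ (q.2 + 1) * χ cur := by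
  intro l
  induction l with
  | nil => intro cur _ _ q hq; simp at hq
  | cons a tl ih =>
    intro cur hcur hchk q hq
    simp only [chainChkList, Bool.and_eq_true, decide_eq_true_eq] at hchk
    obtain ⟨⟨ha, hroot⟩, htl⟩ := hchk
    have hstep : χ a.1 = χ r * χ cur := hχ.2 r cur a.1 hr hcur hroot
    rw [List.zipIdx_cons, List.mem_cons] at hq
    rcases hq with rfl | hq
    · simp only [zero_add, pow_one]
      exact hstep
    · -- shift the index
      rw [List.mem_iff_getElem] at hq
      obtain ⟨i, hi, hq⟩ := hq
      have hi' : i < (tl.zipIdx).length := by simpa using hi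
      have hmem : tl.zipIdx[i] ∈ tl.zipIdx := List.getElem_mem hi'
      have := ih a.1 ha htl _ hmem
      have h1 : q.1 = (tl.zipIdx[i]).1 := by
        subst hq
        simp
      have h2 : q.2 = (tl.zipIdx[i]).2 + 1 := by
        subst hq
        simp [add_comm]
      rw [h1, h2, this, hstep]
      rw [pow_succ _ (_ + 1), mul_assoc]

/-- The character identity for chain coefficients. -/
theorem char_of_chainCoeff (D : ChevalleyDatum) (hc : chainChkAll D = true) {χ : ℕ → Fˣ}
    (hχ : D.IsRootCharacter χ) {r : ℕ} (hr : r < D.nroots) (s u : ℕ) (km : ℕ × ℤ)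
    (hkm : km ∈ D.chainCoeff r s u) : χ u = χ r ^ km.1 * χ s := by
  simp only [ChevalleyDatum.chainCoeff, List.mem_flatMap, List.mem_filter, List.mem_map,
    decide_eq_true_eq] at hkm
  obtain ⟨e, ⟨he, hes⟩, q, ⟨hq, hqu⟩, rfl⟩ := hkm
  simp only [chainChkAll, List.all_eq_true, List.mem_range, Bool.and_eq_true, decide_eq_true_eq] at hc
  obtain ⟨hes', hchk⟩ := hc r hr e he
  have := char_of_chain_list D hχ hr e.2.toList e.1 hes' hchk q hq
  rw [hqu, hes] at this
  exact this

/-- Conjugation of a root element by the diagonal matrix of a root character, for a datum passing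
the table check. -/
theorem charDiag_conj_x (D : ChevalleyDatum) (hc : chainChkAll D = true) {χ : ℕ → Fˣ}
    (hχ : D.IsRootCharacter χ) (r : ℕ) (hr : r < D.nroots) (t : F) :
    D.charDiag F χ * D.x F r t * D.charDiag F (fun s => (χ s)⁻¹) = D.x F r ((χ r : F) * t) := by
  classical
  have hx : ∀ t : F, D.x F r t = D.xMat F ⟨r, hr⟩ t := fun t => dif_pos hr
  rw [hx, hx]
  ext row col
  have hd : ∀ (χ' : ℕ → Fˣ) (M : Matrix D.Idx D.Idx F),
      (D.charDiag F χ' * M) row col = (Sum.elim (fun _ => (1 : F)) (fun r => (χ' r.val : F)) row) * M row col := by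
    intro χ' M
    simp [ChevalleyDatum.charDiag, Matrix.diagonal_mul]
  have hd' : ∀ (χ' : ℕ → Fˣ) (M : Matrix D.Idx D.Idx F),
      (M * D.charDiag F χ') row col = M row col * (Sum.elim (fun _ => (1 : F)) (fun r => (χ' r.val : F)) col) := by
    intro χ' M
    simp [ChevalleyDatum.charDiag, Matrix.mul_diagonal]
  rw [hd', hd]
  have hne : ∀ s : ℕ, (χ s : F) ≠ 0 := fun s => Units.ne_zero _
  rcases col with i | s
  · rcases row with i' | u
    · simp only [ChevalleyDatum.xMat, Matrix.of_apply, Sum.elim_inl, one_mul, mul_one]
    · simp only [ChevalleyDatum.xMat, Matrix.of_apply, Sum.elim_inl, Sum.elim_inr, mul_one]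
      by_cases hu : u = ⟨r, hr⟩
      · subst hu
        simp only [if_true]
        ring
      · simp [hu]
  · by_cases hs : s = ⟨r, hr⟩
    · subst hs
      rcases row with i' | u
      · simp [ChevalleyDatum.xMat]
      · by_cases hu : u = ⟨r, hr⟩
        · subst hu
          simp [ChevalleyDatum.xMat, hne]
        · simp [ChevalleyDatum.xMat, hu]
    · by_cases hs2 : s.val = D.negIdx.getD r 0
      · have hχs : (χ s.val : F) = ((χ r)⁻¹ : Fˣ) := by
          rw [hs2]
          exact congrArg _ (hχ.1 r hr)
        have hχs' : ((χ s.val)⁻¹ : Fˣ) = (χ r : F) := by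
          have : χ s.val = (χ r)⁻¹ := Units.ext hχs
          rw [this, inv_inv]
        rcases row with i' | u
        · simp only [ChevalleyDatum.xMat, Matrix.of_apply, if_neg hs, if_pos hs2, Sum.elim_inl,
            Sum.elim_inr, one_mul]
          rw [hχs']
          ring
        · by_cases hu : u = s
          · subst hu
            simp only [ChevalleyDatum.xMat, Matrix.of_apply, if_neg hs, if_pos hs2, if_true, Sum.elim_inr]
            rw [hχs']
            rw [mul_one, hχs]
            simp
          · by_cases hur : u = ⟨r, hr⟩
            · subst hur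
              simp only [ChevalleyDatum.xMat, Matrix.of_apply, if_neg hs, if_pos hs2, if_true, if_neg hu, Sum.elim_inr]
              rw [hχs']
              ring
            · simp only [ChevalleyDatum.xMat, Matrix.of_apply, if_neg hs, if_pos hs2, if_neg hu, if_neg hur, mul_zero, zero_mul]
      · rcases row with i' | u
        · simp only [ChevalleyDatum.xMat, Matrix.of_apply, if_neg hs, if_neg hs2, mul_zero, zero_mul]
        · simp only [ChevalleyDatum.xMat, Matrix.of_apply, if_neg hs, if_neg hs2, Sum.elim_inr]
          rw [mul_add, add_mul]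
          congr 1
          · by_cases hu : u = s
            · subst hu
              simp [hne]
            · simp [hu]
          · rw [← List.sum_map_mul_left, ← List.sum_map_mul_right]
            congr 1
            apply List.map_congr_left
            intro km hkm
            have h1 := char_of_chainCoeff D hc hχ hr s.val u.val km hkm
            have h2 : (χ u.val : F) = ((χ r ^ km.1 * χ s.val : Fˣ) : F) := by rw [h1]
            rw [h2]
            simp only [Units.val_mul, Units.val_pow_eq_pow_val, Units.val_inv_eq_inv_val]
            have := hne s.val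
            field_simp
            rw [mul_pow]
            ring

end Cfsg.Agent.Lib.KnownSimple
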