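import Mathlib
import Cfsg.Agent.Lib.KnownSimple.LabKit

/-!
# Labelled coset tables: letters acting as permutations of `Fin n`
-/

set_option autoImplicit false

namespace Cfsg.Agent.Lib.KnownSimple.LabPerm

open Cfsg.Agent.Lib.KnownSimple.Lab

/-- A word acting on a number. -/
def lwalk (n : ℕ) (L : List (List ℕ)) : List ℕ → ℕ → ℕ
  | [], i => i
  | a :: w, i => Nat.mod ((L.getD a []).getD (lwalk n L w i) 0) n

/-- The word is the identity. -/
def chkP (n : ℕ) (L : List (List ℕ)) (w : List ℕ) : Bool :=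
  (List.range n).all fun i => Nat.beq (lwalk n L w i) i

/-- The word is not the identity. -/
def chkneP (n : ℕ) (L : List (List ℕ)) (w : List ℕ) : Bool :=
  (List.range n).any fun i => !(Nat.beq (lwalk n L w i) i)

section

variable {G : Type*} [Group G] {n : ℕ} (ι : G →* Equiv.Perm (Fin n)) (L : List (List ℕ)) (γ : ℕ → G) (k : ℕ)
  (hγ : ∀ a < k, ∀ i : Fin n, ((ι (γ a) i : Fin n) : ℕ) = Nat.mod ((L.getD a []).getD i 0) n)

include hγ

theorem wval_apply (w : List ℕ) (hw : ∀ a ∈ w, a < k) (i : Fin n) :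
    ((ι (wval γ w) i : Fin n) : ℕ) = lwalk n L w i := by
  induction w with
  | nil => simp [wval, lwalk]
  | cons a w ih =>
    have h1 := ih (fun b hb => hw b (by simp [hb]))
    rw [wval_cons, map_mul, Equiv.Perm.mul_apply, hγ a (hw a (by simp)), lwalk, h1]

theorem wval_eq_one_of (hι : Function.Injective ι) (w : List ℕ) (hw : ∀ a ∈ w, a < k)
    (h : chkP n L w = true) : wval γ w = 1 := by
  apply hι
  rw [map_one]
  ext i
  rw [wval_apply ι L γ k hγ w hw i]
  simp only [chkP, List.all_eq_true, List.mem_range, Nat.beq_eq] at h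
  exact h i i.2

theorem wval_ne_one_of (w : List ℕ) (hw : ∀ a ∈ w, a < k)
    (h : chkneP n L w = true) : wval γ w ≠ 1 := by
  intro h1
  simp only [chkneP, List.any_eq_true, List.mem_range, Bool.not_eq_true'] at h
  obtain ⟨i, hi, h2⟩ := h
  have h3 := wval_apply ι L γ k hγ w hw ⟨i, hi⟩
  rw [h1, map_one] at h3
  have h4 : lwalk n L w i = i := h3.symm
  rw [h4, Nat.beq_refl] at h2
  exact Bool.noConfusion h2

end

/-- A permutation from a list and its inverse. -/
def mkPerm (n : ℕ) (hn : 0 < n) (p q : List ℕ)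
    (h1 : ∀ i : Fin n, Nat.mod (q.getD (Nat.mod (p.getD i 0) n) 0) n = i)
    (h2 : ∀ i : Fin n, Nat.mod (p.getD (Nat.mod (q.getD i 0) n) 0) n = i) : Equiv.Perm (Fin n) where
  toFun i := ⟨Nat.mod (p.getD i 0) n, Nat.mod_lt _ hn⟩
  invFun i := ⟨Nat.mod (q.getD i 0) n, Nat.mod_lt _ hn⟩
  left_inv i := Fin.ext (h1 i)
  right_inv i := Fin.ext (h2 i)

end Cfsg.Agent.Lib.KnownSimple.LabPerm
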