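import Cfsg.Prelude.Def_ChevAutomorphisms
import Cfsg.Prelude.Def_LieTypes
import Cfsg.Prelude.Def_ChevB2

/-! Checks of the chain tables of the Chevalley data. -/

set_option autoImplicit false

namespace Cfsg.Agent.Lib.KnownSimple

open Cfsg Cfsg.Lie

/-- Table check: each step of the lists of the chain table is an `r`-chain step. -/
def chainChkList (D : ChevalleyDatum) (r : ℕ) : ℕ → List (ℕ × ℤ) → Bool
  | _, [] => true
  | cur, q :: tl => (decide (q.1 < D.nroots)) && (decide (D.chainRoot r cur 1 = some q.1)) &&
      chainChkList D r q.1 tl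

/-- Table check for the whole datum. -/
def chainChkAll (D : ChevalleyDatum) : Bool :=
  (List.range D.nroots).all fun r =>
    (D.chain.getD r #[]).toList.all fun e => decide (e.1 < D.nroots) && chainChkList D r e.1 e.2.toList

set_option maxRecDepth 100000 in
theorem chainChkAll_G2 : chainChkAll chevG2 = true := by decide +kernel
set_option maxRecDepth 100000 in
theorem chainChkAll_B2 : chainChkAll chevB2 = true := by decide +kernel
set_option maxRecDepth 100000 in
theorem chainChkAll_D4 : chainChkAll chevD4 = true := by decide +kernel
set_option maxRecDepth 100000 in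
theorem chainChkAll_F4 : chainChkAll chevF4 = true := by decide +kernel
set_option maxRecDepth 100000 in
theorem chainChkAll_E6 : chainChkAll chevE6 = true := by decide +kernel
set_option maxRecDepth 100000 in
theorem chainChkAll_E7 : chainChkAll chevE7 = true := by decide +kernel
set_option maxRecDepth 100000 in
theorem chainChkAll_E8 : chainChkAll chevE8 = true := by decide +kernel

theorem chainChkAll_of_mem {D : ChevalleyDatum} (hD : D ∈ [Cfsg.Lie.chevG2, Cfsg.Lie.chevB2, Cfsg.Lie.chevD4, Cfsg.Lie.chevF4, Cfsg.Lie.chevE6, Cfsg.Lie.chevE7, Cfsg.Lie.chevE8]) :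
    chainChkAll D = true := by
  simp only [List.mem_cons, List.not_mem_nil, or_false] at hD
  rcases hD with rfl | rfl | rfl | rfl | rfl | rfl | rfl
  · exact chainChkAll_G2
  · exact chainChkAll_B2
  · exact chainChkAll_D4
  · exact chainChkAll_F4
  · exact chainChkAll_E6
  · exact chainChkAll_E7
  · exact chainChkAll_E8

end Cfsg.Agent.Lib.KnownSimple
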