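import Mathlib
import Cfsg.Agent.Lib.KnownSimple.LabField

/-! The field with three elements, by tables -/

set_option autoImplicit false
set_option maxHeartbeats 2000000
set_option linter.unreachableTactic false
set_option linter.unnecessarySeqFocus false

namespace Cfsg.Agent.Lib.KnownSimple.LabField

/-- The addition table of the field with 3 elements. -/
def addT3 : ℕ := 74340
/-- The multiplication table of the field with 3 elements. -/
def mulT3 : ℕ := 100608
/-- Addition of codes. -/
def add3 (x y : ℕ) : ℕ := tlook addT3 2 3 x y
/-- Multiplication of codes. -/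
def mul3 (x y : ℕ) : ℕ := tlook mulT3 2 3 x y

section

variable {F : Type*} [Field F]

/-- The elements from the codes. -/
def psi3 : ℕ → F
  | 0 => 0
  | 1 => (1 : F)
  | 2 => (2 : F)
  | _ => 0

theorem psi3_add (hp : (3 : F) = 0) : ∀ x < 3, ∀ y < 3, (psi3 (add3 x y % 3) : F) = psi3 x + psi3 y := by
  intro x hx y hy
  interval_cases x <;> interval_cases y
  · show (psi3 0 : F) = _
    simp only [psi3] <;> linear_combination (0) * hp
  · show (psi3 1 : F) = _
    simp only [psi3] <;> linear_combination (0) * hp
  · show (psi3 2 : F) = _
    simp only [psi3] <;> linear_combination (0) * hp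
  · show (psi3 1 : F) = _
    simp only [psi3] <;> linear_combination (0) * hp
  · show (psi3 2 : F) = _
    simp only [psi3] <;> linear_combination (0) * hp
  · show (psi3 0 : F) = _
    simp only [psi3] <;> linear_combination ((-1 : F)) * hp
  · show (psi3 2 : F) = _
    simp only [psi3] <;> linear_combination (0) * hp
  · show (psi3 0 : F) = _
    simp only [psi3] <;> linear_combination ((-1 : F)) * hp
  · show (psi3 1 : F) = _
    simp only [psi3] <;> linear_combination ((-1 : F)) * hp

theorem psi3_mul (hp : (3 : F) = 0) : ∀ x < 3, ∀ y < 3, (psi3 (mul3 x y % 3) : F) = psi3 x * psi3 y := by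
  intro x hx y hy
  interval_cases x <;> interval_cases y
  · show (psi3 0 : F) = _
    simp only [psi3] <;> linear_combination (0) * hp
  · show (psi3 0 : F) = _
    simp only [psi3] <;> linear_combination (0) * hp
  · show (psi3 0 : F) = _
    simp only [psi3] <;> linear_combination (0) * hp
  · show (psi3 0 : F) = _
    simp only [psi3] <;> linear_combination (0) * hp
  · show (psi3 1 : F) = _
    simp only [psi3] <;> linear_combination (0) * hp
  · show (psi3 2 : F) = _
    simp only [psi3] <;> linear_combination (0) * hp
  · show (psi3 0 : F) = _
    simp only [psi3] <;> linear_combination (0) * hp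
  · show (psi3 2 : F) = _
    simp only [psi3] <;> linear_combination (0) * hp
  · show (psi3 1 : F) = _
    simp only [psi3] <;> linear_combination ((-1 : F)) * hp

end


theorem exists_rep3 {F : Type*} [Field F] [Fintype F] (hF : Fintype.card F = 3) : Nonempty (Rep F 3 add3 mul3) := by
  have hp : (3 : F) = 0 := by exact_mod_cast char_of_pow (p := 3) (e := 1) (by rw [hF]; norm_num)
  exact rep_of 3 2 addT3 mulT3 (by norm_num) hF (psi3) (psi3_add hp) (psi3_mul hp) rfl rfl (by decide +kernel)

end Cfsg.Agent.Lib.KnownSimple.LabField
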