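import Mathlib
import Cfsg.Agent.Lib.KnownSimple.LabField

/-!
# The field with twenty-five elements, by formulas
-/

set_option autoImplicit false

namespace Cfsg.Agent.Lib.KnownSimple.LabField

/-- Addition of codes. -/
def add25 (x y : ℕ) : ℕ := (x % 5 + y % 5) % 5 + 5 * ((x / 5 + y / 5) % 5)

/-- Multiplication of codes. -/
def mul25 (x y : ℕ) : ℕ :=
  (x % 5 * (y % 5) + 2 * ((x / 5) * (y / 5))) % 5 + 5 * ((x % 5 * (y / 5) + (x / 5) * (y % 5)) % 5)

/-- The field automorphism on codes. -/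
def fr25 (c : ℕ) : ℕ := mul25 c (mul25 c (mul25 c (mul25 c c)))

section

variable {F : Type*} [Field F] [Fintype F]

/-- The element of a code. -/
def psi25 (a : F) (c : ℕ) : F := ((c % 5 : ℕ) : F) + ((c / 5 : ℕ) : F) * a

theorem root25 (hF : Fintype.card F = 25) (hp : (5 : F) = 0) : ∃ a : F, a ^ 2 = 2 := by
  have h2 : (2 : F) ≠ 0 := by
    intro h
    have : (1 : F) = 5 - 2 * 2 := by norm_num
    rw [hp, h] at this
    simp at this
  have hc : ringChar F ≠ 2 := by
    intro h
    have h3 := ringChar.Nat.cast_ringChar (R := F)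
    rw [h] at h3
    exact h2 (by exact_mod_cast h3)
  have h4 : IsSquare (2 : F) := by
    rw [FiniteField.isSquare_iff hc h2, hF]
    have e : (25 / 2 : ℕ) = 12 := by norm_num
    rw [e]
    linear_combination (819 : F) * hp
  obtain ⟨r, hr⟩ := h4
  exact ⟨r, by rw [hr]; ring⟩

theorem exists_rep25 (hF : Fintype.card F = 25) : Nonempty (Rep F 25 add25 mul25) := by
  have hp : (5 : F) = 0 := by exact_mod_cast char_of_pow (p := 5) (e := 2) (by rw [hF]; norm_num)
  obtain ⟨a, ha⟩ := root25 hF hp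
  have hc : ∀ n : ℕ, ((n % 5 : ℕ) : F) = (n : F) := by
    intro n
    conv_rhs => rw [← Nat.mod_add_div n 5]
    push_cast
    rw [hp]
    ring
  have key : ∀ A B : ℕ, psi25 a (A % 5 + 5 * (B % 5)) = (A : F) + (B : F) * a := by
    intro A B
    have h1 : (A % 5 + 5 * (B % 5)) % 5 = A % 5 := by omega
    have h2 : (A % 5 + 5 * (B % 5)) / 5 = B % 5 := by omega
    simp only [psi25, h1, h2, hc]
  have hA : ∀ x y, psi25 a (add25 x y) = psi25 a x + psi25 a y := by
    intro x y
    rw [add25, key]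
    simp only [psi25]
    push_cast
    ring
  have hM : ∀ x y, psi25 a (mul25 x y) = psi25 a x * psi25 a y := by
    intro x y
    rw [mul25, key]
    simp only [psi25]
    push_cast
    linear_combination (-(((x / 5 : ℕ) : F) * ((y / 5 : ℕ) : F))) * ha
  have h0 : psi25 a 0 = 0 := by simp [psi25]
  have h1 : psi25 a 1 = 1 := by simp [psi25]
  have hchk : ∀ x < 25, ∀ y < 25, x ≠ y → ∃ z < 25, ∃ z' < 25, add25 y z = x ∧ mul25 z z' = 1 := by decide +kernel
  have hinj : ∀ x y, x < 25 → y < 25 → psi25 a x = psi25 a y → x = y := by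
    intro x y hx hy e
    by_contra hne
    obtain ⟨z, hz, z', hz', e1, e2⟩ := hchk x hx y hy hne
    have h3 := hA y z
    rw [e1, e] at h3
    have h4 : psi25 a z = 0 := by simpa using h3
    have h5 := hM z z'
    rw [e2, h1, h4, zero_mul] at h5
    exact one_ne_zero h5
  have hbij : Function.Surjective (fun c : Fin 25 => psi25 a c) := by
    have h6 : Function.Injective (fun c : Fin 25 => psi25 a c) := fun x y e =>
      Fin.ext (hinj _ _ x.2 y.2 e)
    exact (Fintype.bijective_iff_injective_and_card _).mpr ⟨h6, by simp [hF]⟩ |>.2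
  exact ⟨⟨psi25 a, hA, hM, h0, h1, hinj, fun z => by
    obtain ⟨c, hc⟩ := hbij z
    exact ⟨c, c.2, hc⟩⟩⟩

end

end Cfsg.Agent.Lib.KnownSimple.LabField
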