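import Mathlib
import Cfsg.Agent.Lib.Classical.Symp
import Cfsg.Agent.Lib.Classical.Symp2
import Cfsg.Agent.Lib.Classical.SpOrder
import Cfsg.Agent.Lib.KnownSimple.LabMat
import Cfsg.Agent.Lib.KnownSimple.LabField

/-!
# Labelled coset tables: letters of the symplectic group in six dimensions over the field with two elements
-/

set_option autoImplicit false

namespace Cfsg.Agent.Lib.KnownSimple.LabSp

open Cfsg.Agent.Lib.KnownSimple.Lab Cfsg.Agent.Lib.KnownSimple.LabMat Cfsg.Agent.Lib.KnownSimple.LabField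
open Cfsg.Agent.Lib.Classical Matrix

variable {F : Type*} [Field F]

/-- The matrix of an element, with indices in `Fin 6`. -/
def spHom (F : Type*) [Field F] : Matrix.symplecticGroup (Fin 3) F →* Matrix (Fin 6) (Fin 6) F where
  toFun A := Matrix.reindex (finSumFinEquiv (m := 3) (n := 3)) (finSumFinEquiv (m := 3) (n := 3)) A.1
  map_one' := by
    ext i j
    simp [Matrix.one_apply]
  map_mul' A B := by
    ext i j
    simp only [Matrix.reindex_apply, Matrix.submatrix_apply, Submonoid.coe_mul, Matrix.mul_apply]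
    rw [← Equiv.sum_comp (finSumFinEquiv (m := 3) (n := 3))]
    simp

theorem spHom_inj : Function.Injective (spHom F) := by
  intro A B h
  apply Subtype.ext
  have h1 : Matrix.reindex (finSumFinEquiv (m := 3) (n := 3)) (finSumFinEquiv (m := 3) (n := 3)) A.1 =
      Matrix.reindex (finSumFinEquiv (m := 3) (n := 3)) (finSumFinEquiv (m := 3) (n := 3)) B.1 := h
  exact (Matrix.reindex _ _).injective h1

/-- A bit of a code. -/
def bitc (c k : ℕ) : ℕ := c / 2 ^ k % 2

/-- The transvection of a code. -/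
def tcode (c : ℕ) : List ℕ :=
  (List.range (6 * 6)).map fun e =>
    add2 (if Nat.beq (e / 6) (e % 6) then 1 else 0) (mul2 (bitc c (e / 6)) (bitc c ((e % 6 + 3) % 6)))

/-- The vector of a code. -/
def vecC (φ : ℕ → F) (c : ℕ) : Fin 3 ⊕ Fin 3 → F :=
  fun i => φ (bitc c (finSumFinEquiv (m := 3) (n := 3) i))

theorem J_inl {m : ℕ} (v : Fin m ⊕ Fin m → F) (i : Fin m) :
    (Matrix.J (Fin m) F *ᵥ v) (Sum.inl i) = - v (Sum.inr i) := by
  simp [Matrix.J, Matrix.mulVec, dotProduct, Fintype.sum_sum_type, Matrix.one_apply]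

theorem J_inr {m : ℕ} (v : Fin m ⊕ Fin m → F) (i : Fin m) :
    (Matrix.J (Fin m) F *ᵥ v) (Sum.inr i) = v (Sum.inl i) := by
  simp [Matrix.J, Matrix.mulVec, dotProduct, Fintype.sum_sum_type, Matrix.one_apply]

theorem neg_rep (R : Rep F 2 add2 mul2) (x : F) : - x = x := by
  have h1 : (1 : F) + 1 = 0 := by
    have := R.hadd 1 1
    rw [show add2 1 1 = 0 by decide +kernel, R.h0, R.h1] at this
    exact this.symm
  have h2 : x + x = 0 := by
    calc x + x = (1 + 1) * x := by ring
      _ = 0 := by rw [h1, zero_mul]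
  exact neg_eq_of_add_eq_zero_left h2

theorem J_val (R : Rep F 2 add2 mul2) (c : ℕ) (j : Fin 6) :
    (Matrix.J (Fin 3) F *ᵥ vecC R.φ c) ((finSumFinEquiv (m := 3) (n := 3)).symm j) =
      R.φ (bitc c ((j + 3) % 6)) := by
  fin_cases j
  · show (Matrix.J (Fin 3) F *ᵥ vecC R.φ c) (Sum.inl 0) = R.φ (bitc c 3)
    rw [J_inl, neg_rep R]
    rfl
  · show (Matrix.J (Fin 3) F *ᵥ vecC R.φ c) (Sum.inl 1) = R.φ (bitc c 4)
    rw [J_inl, neg_rep R]
    rfl
  · show (Matrix.J (Fin 3) F *ᵥ vecC R.φ c) (Sum.inl 2) = R.φ (bitc c 5)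
    rw [J_inl, neg_rep R]
    rfl
  · show (Matrix.J (Fin 3) F *ᵥ vecC R.φ c) (Sum.inr 0) = R.φ (bitc c 0)
    rw [J_inr]
    rfl
  · show (Matrix.J (Fin 3) F *ᵥ vecC R.φ c) (Sum.inr 1) = R.φ (bitc c 1)
    rw [J_inr]
    rfl
  · show (Matrix.J (Fin 3) F *ᵥ vecC R.φ c) (Sum.inr 2) = R.φ (bitc c 2)
    rw [J_inr]
    rfl

theorem toM_tcode (R : Rep F 2 add2 mul2) (c : ℕ) :
    spHom F (sympTr (vecC R.φ c) 1) = toM R.φ 6 (tcode c) := by
  ext i j
  show Matrix.reindex (finSumFinEquiv (m := 3) (n := 3)) (finSumFinEquiv (m := 3) (n := 3))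
    (Cfsg.sympTransvection 3 (vecC R.φ c) 1) i j = _
  simp only [toM, Matrix.of_apply, tcode]
  rw [getD_range_map _ i.2 j.2, idx_div j.2, idx_mod j.2, R.hadd, R.hmul]
  simp only [Matrix.reindex_apply, Matrix.submatrix_apply, Cfsg.sympTransvection, Matrix.add_apply,
    Matrix.smul_apply, Matrix.vecMulVec_apply, smul_eq_mul, one_mul]
  congr 1
  · by_cases h : i = j
    · subst h
      simp [Nat.beq_refl, R.h1]
    · have h2 : (i : ℕ) ≠ j := fun e => h (Fin.ext e)
      have h3 : (finSumFinEquiv (m := 3) (n := 3)).symm i ≠ (finSumFinEquiv (m := 3) (n := 3)).symm j :=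
        fun e => h ((Equiv.injective _) e)
      rw [beq_false h2, Matrix.one_apply_ne h3]
      simp [R.h0]
  · congr 1
    · simp [vecC]
    · exact J_val R c j

/-- The list of all transvections. -/
def tcodes : List (List ℕ) := (List.range 64).map tcode

theorem tcodes_getD {c : ℕ} (hc : c < 64) : tcodes.getD c [] = tcode c := by
  unfold tcodes
  rw [List.getD_eq_getElem _ _ (by simpa using hc)]
  simp

/-- The transvection of a code as an element of the group. -/
def tv (φ : ℕ → F) (c : ℕ) : Matrix.symplecticGroup (Fin 3) F := sympTr (vecC φ c) 1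

theorem tv_val (R : Rep F 2 add2 mul2) : ∀ c < 64, spHom F (tv R.φ c) = toM R.φ 6 (tcodes.getD c []) := by
  intro c hc
  rw [tcodes_getD hc]
  exact toM_tcode R c

/-- A letter, as a product of transvections. -/
def spLetter (φ : ℕ → F) (LW : ℕ → List ℕ) (a : ℕ) : Matrix.symplecticGroup (Fin 3) F :=
  wval (tv φ) (LW a)

theorem spLetter_val (R : Rep F 2 add2 mul2) {LW : ℕ → List ℕ} {a : ℕ} (h1 : ∀ c ∈ LW a, c < 64) :
    spHom F (spLetter R.φ LW a) = toM R.φ 6 (wordC add2 mul2 6 tcodes (LW a)) :=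
  wval_toM (spHom F) R.hadd R.hmul R.h0 R.h1 (tv_val R) (LW a) h1

theorem bits_eq (b : Fin 3 ⊕ Fin 3 → ℕ) (hb : ∀ i, b i < 2) :
    ∃ c < 64, ∀ i, bitc c (finSumFinEquiv (m := 3) (n := 3) i) = b i := by
  have h0 := hb (Sum.inl 0)
  have h1 := hb (Sum.inl 1)
  have h2 := hb (Sum.inl 2)
  have h3 := hb (Sum.inr 0)
  have h4 := hb (Sum.inr 1)
  have h5 := hb (Sum.inr 2)
  refine ⟨b (Sum.inl 0) + 2 * b (Sum.inl 1) + 4 * b (Sum.inl 2) + 8 * b (Sum.inr 0) +
    16 * b (Sum.inr 1) + 32 * b (Sum.inr 2), by omega, ?_⟩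
  rintro (i | i) <;> fin_cases i
  · show bitc _ 0 = b (Sum.inl 0)
    simp only [bitc]
    norm_num
    omega
  · show bitc _ 1 = b (Sum.inl 1)
    simp only [bitc]
    norm_num
    omega
  · show bitc _ 2 = b (Sum.inl 2)
    simp only [bitc]
    norm_num
    omega
  · show bitc _ 3 = b (Sum.inr 0)
    simp only [bitc]
    norm_num
    omega
  · show bitc _ 4 = b (Sum.inr 1)
    simp only [bitc]
    norm_num
    omega
  · show bitc _ 5 = b (Sum.inr 2)
    simp only [bitc]
    norm_num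
    omega

/-- The letters generate the group, when they give the transvections. -/
theorem sp_closure (R : Rep F 2 add2 mul2) {L : List (List ℕ)} {γ : ℕ → Matrix.symplecticGroup (Fin 3) F} {k : ℕ}
    (hγ : ∀ a < k, spHom F (γ a) = toM R.φ 6 (L.getD a []))
    (TW : ℕ → List ℕ)
    (hTW : ∀ c < 64, (∀ a ∈ TW c, a < k) ∧ wordC add2 mul2 6 L (TW c) = tcode c) :
    Subgroup.closure (γ '' {a | a < k}) = ⊤ := by
  rw [eq_top_iff, ← trSubgroup_top, trSubgroup, Subgroup.closure_le]
  set K := Subgroup.closure (γ '' {a | a < k}) with hK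
  have hmem : ∀ w : List ℕ, (∀ a ∈ w, a < k) → wval γ w ∈ K := by
    intro w hw
    induction w with
    | nil => exact one_mem _
    | cons a w ih =>
      exact mul_mem (Subgroup.subset_closure ⟨a, hw a (by simp), rfl⟩) (ih (fun b hb => hw b (by simp [hb])))
  rintro A ⟨w, -, c0, hA⟩
  obtain ⟨c1, hc1, rfl⟩ := R.hsurj c0
  have hcases : c1 = 0 ∨ c1 = 1 := by omega
  rcases hcases with rfl | rfl
  · have : A = 1 := by
      apply Subtype.ext
      rw [hA, R.h0]
      simp [Cfsg.sympTransvection]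
    rw [this]
    exact one_mem _
  · rw [R.h1] at hA
    choose b hb1 hb2 using fun i => R.hsurj (w i)
    obtain ⟨c, hc64, hc⟩ := bits_eq b hb1
    have hvec : vecC R.φ c = w := by
      funext i
      simp only [vecC]
      rw [hc i]
      exact hb2 i
    have hA' : A = sympTr (vecC R.φ c) 1 := Subtype.ext (by rw [hA, hvec]; rfl)
    obtain ⟨h2, h3⟩ := hTW c hc64
    have h4 := wval_toM (spHom F) R.hadd R.hmul R.h0 R.h1 hγ _ h2
    rw [h3, ← toM_tcode R c] at h4
    have h5 := spHom_inj h4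
    rw [hA', ← h5]
    exact hmem _ h2

/-- The letters of the projective group. -/
def pspLetters (γ : ℕ → Matrix.symplecticGroup (Fin 3) F) (a : ℕ) : Cfsg.PSp 3 F :=
  QuotientGroup.mk (γ a)

theorem wval_psp (γ : ℕ → Matrix.symplecticGroup (Fin 3) F) (w : List ℕ) :
    wval (pspLetters γ) w = QuotientGroup.mk (wval γ w) :=
  (map_wval (QuotientGroup.mk' (Subgroup.center (Matrix.symplecticGroup (Fin 3) F))) γ w).symm

theorem psp_closure {γ : ℕ → Matrix.symplecticGroup (Fin 3) F} {k : ℕ}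
    (hγ : Subgroup.closure (γ '' {a | a < k}) = ⊤) :
    Subgroup.closure (pspLetters γ '' {a | a < k}) = ⊤ := by
  have h1 : pspLetters γ '' {a | a < k} =
      (QuotientGroup.mk' (Subgroup.center (Matrix.symplecticGroup (Fin 3) F))) '' (γ '' {a | a < k}) := by
    rw [Set.image_image]
    rfl
  rw [h1, ← MonoidHom.map_closure, hγ, ← MonoidHom.range_eq_map]
  exact MonoidHom.range_eq_top.mpr (QuotientGroup.mk'_surjective _)

theorem psp_eq_one (R : Rep F 2 add2 mul2) {L : List (List ℕ)} {γ : ℕ → Matrix.symplecticGroup (Fin 3) F} {k : ℕ}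
    (hγ : ∀ a < k, spHom F (γ a) = toM R.φ 6 (L.getD a []))
    (w : List ℕ) (hw : ∀ a ∈ w, a < k) (h : (wordC add2 mul2 6 L w == idC 6) = true) :
    wval (pspLetters γ) w = 1 := by
  have h1 := wval_toM (spHom F) R.hadd R.hmul R.h0 R.h1 hγ w hw
  rw [eq_of_beq h, toM_idC R.h0 R.h1, ← map_one (spHom F)] at h1
  rw [wval_psp, spHom_inj h1]
  rfl

theorem center_sp (R : Rep F 2 add2 mul2) : Subgroup.center (Matrix.symplecticGroup (Fin 3) F) = ⊥ := by
  rw [eq_bot_iff]
  intro A hA
  rw [Subgroup.mem_bot]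
  apply Subtype.ext
  rcases sp_central_one_or_neg (by norm_num) A hA with h | h
  · exact h
  · rw [h]
    ext i j
    rw [Matrix.neg_apply, neg_rep R]
    rfl

theorem card_psp [Fintype F] (R : Rep F 2 add2 mul2) (hF : Fintype.card F = 2) :
    Nat.card (Cfsg.PSp 3 F) = 1451520 := by
  have h1 := card_sp hF 3
  have h2 : Nat.card (Cfsg.PSp 3 F) = Nat.card (Matrix.symplecticGroup (Fin 3) F) := by
    show (Subgroup.center (Matrix.symplecticGroup (Fin 3) F)).index = _
    rw [center_sp R]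
    exact Subgroup.index_bot
  rw [h2, h1]
  norm_num [Finset.prod_range_succ]

end Cfsg.Agent.Lib.KnownSimple.LabSp
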