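import Mathlib
import Cfsg.Agent.Lib.KnownSimple.MathieuOut

/-!
# Subgroups of `M24` given by explicit element tables
-/

set_option autoImplicit false

namespace Cfsg.Agent.Lib.KnownSimple.MathieuList

open Cfsg.Agent.Lib.Golay Cfsg.Agent.Lib.KnownSimple.MathieuOut Subgroup
open scoped Pointwise

/-- The generating set of a list of permutations. -/
def genSet (gens : List (List ℕ)) : Set (Equiv.Perm GolayPt) := {x | ∃ g ∈ gens, perm g = x}

theorem mem_of_table {gens E : List (List ℕ)} (hg : ∀ g ∈ gens, isPerm g = true)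
    (hE : ∀ e ∈ E, isPerm e = true) (hid : idL ∈ E) (hcl : ∀ g ∈ gens, ∀ e ∈ E, mulL g e ∈ E) :
    ∀ x ∈ closure (genSet gens), ∃ e ∈ E, perm e = x := by
  classical
  set W : Finset (Equiv.Perm GolayPt) := E.toFinset.image perm with hW
  have hWm : ∀ {x}, x ∈ W ↔ ∃ e ∈ E, perm e = x := by
    intro x
    simp [hW]
  have h1 : closure (genSet gens) ≤ MulAction.stabilizer (Equiv.Perm GolayPt) W := by
    rw [closure_le]
    rintro x ⟨g, hgm, rfl⟩
    rw [SetLike.mem_coe, MulAction.mem_stabilizer_iff]
    apply Finset.eq_of_subset_of_card_le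
    · intro y hy
      obtain ⟨w, hw, rfl⟩ := Finset.mem_smul_finset.mp hy
      obtain ⟨e, he, rfl⟩ := hWm.mp hw
      refine hWm.mpr ⟨mulL g e, hcl g hgm e he, ?_⟩
      rw [perm_mulL' (hg g hgm) (hE e he)]
      rfl
    · rw [Finset.card_smul_finset]
  intro x hx
  have h2 := h1 hx
  rw [MulAction.mem_stabilizer_iff] at h2
  have h3 : (1 : Equiv.Perm GolayPt) ∈ W := hWm.mpr ⟨idL, hid, perm_idL⟩
  have h4 : x * 1 ∈ x • W := Finset.smul_mem_smul_finset (a := x) h3
  rw [h2, mul_one] at h4
  exact hWm.mp h4

/-- The table of a subgroup, as the table of a straight line program. -/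
theorem table_spec {gens : List (List ℕ)} {steps : List (ℕ × ℕ)} (hg : ∀ g ∈ gens, isPerm g = true)
    (hchk : slpChk gens.length steps = true) (hid : idL ∈ slpRun gens steps)
    (hcl : ∀ g ∈ gens, ∀ e ∈ slpRun gens steps, mulL g e ∈ slpRun gens steps)
    (hnd : (slpRun gens steps).Nodup) :
    (∀ x, x ∈ closure (genSet gens) ↔ ∃ e ∈ slpRun gens steps, perm e = x) ∧
      Nat.card (closure (genSet gens)) = (slpRun gens steps).length := by
  classical
  set E := slpRun gens steps with hEd
  have htab : ∀ g ∈ gens, isPerm g = true ∧ perm g ∈ closure (genSet gens) := fun g hgm =>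
    ⟨hg g hgm, subset_closure ⟨g, hgm, rfl⟩⟩
  have hrun := slp_mem (closure (genSet gens)) steps gens htab hchk
  have hE : ∀ e ∈ E, isPerm e = true := fun e he => (hrun e he).1
  have hiff : ∀ x, x ∈ closure (genSet gens) ↔ ∃ e ∈ E, perm e = x := by
    intro x
    constructor
    · exact mem_of_table hg hE hid hcl x
    · rintro ⟨e, he, rfl⟩
      exact (hrun e he).2
  refine ⟨hiff, ?_⟩
  have h1 : ((closure (genSet gens) : Subgroup (Equiv.Perm GolayPt)) : Set (Equiv.Perm GolayPt)) =
      ((E.toFinset.image perm : Finset (Equiv.Perm GolayPt)) : Set (Equiv.Perm GolayPt)) := by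
    ext x
    simp [hiff]
  have h2 : Nat.card (closure (genSet gens)) = (E.toFinset.image perm).card := by
    have h3 : Nat.card (closure (genSet gens)) =
        Nat.card (((E.toFinset.image perm : Finset (Equiv.Perm GolayPt)) : Set (Equiv.Perm GolayPt)) : Type _) := by
      rw [← h1]
      rfl
    rw [h3, Nat.card_coe_set_eq, Set.ncard_coe_finset]
  rw [h2, Finset.card_image_of_injOn, List.toFinset_card_of_nodup hnd]
  intro a ha b hb hab
  exact perm_injective (hE a (by simpa using ha)) (hE b (by simpa using hb)) hab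

/-- Cards and indices inside a subtype. -/
theorem card_closure_subtype {H : Subgroup (Equiv.Perm GolayPt)} (S : Set H) :
    Nat.card (closure S) = Nat.card (closure (Subtype.val '' S)) := by
  have h1 : (closure S).map H.subtype = closure (Subtype.val '' S) := by
    rw [MonoidHom.map_closure]
    rfl
  rw [← h1, Subgroup.card_map_of_injective H.subtype_injective]

/-- The index of a subgroup generated by a table. -/
theorem index_closure_subtype {H : Subgroup (Equiv.Perm GolayPt)} {N m : ℕ} (hN : Nat.card H = N) (S : Set H)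
    (gens : List (List ℕ)) (hS : Subtype.val '' S = genSet gens) (hm : Nat.card (closure (genSet gens)) = m) :
    m * (closure S).index = N := by
  have h1 := Subgroup.card_mul_index (closure S)
  rw [card_closure_subtype, hS, hm, hN] at h1
  exact h1

end Cfsg.Agent.Lib.KnownSimple.MathieuList
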