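import Mathlib
import Cfsg.Agent.Lib.KnownSimple.Schur
import Cfsg.Agent.Lib.Known.SL2Classes

/-!
# The upper unitriangular subgroup of `SL₂(F)` in a stem extension
-/

set_option autoImplicit false

namespace Cfsg.Agent.Lib.KnownSimple

open Subgroup Cfsg.Agent.Lib.Known
open scoped commutatorElement

variable {F : Type*} [Field F]

/-- The upper unitriangular subgroup. -/
def U0 (F : Type*) [Field F] : Subgroup (SL2 F) where
  carrier := {x | ∃ b, x = sl2U b}
  mul_mem' := by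
    rintro _ _ ⟨b, rfl⟩ ⟨c, rfl⟩
    exact ⟨b + c, sl2U_add b c⟩
  one_mem' := ⟨0, sl2U_zero.symm⟩
  inv_mem' := by
    rintro _ ⟨b, rfl⟩
    refine ⟨-b, ?_⟩
    rw [inv_eq_iff_mul_eq_one, sl2U_add]
    simp

theorem mem_U0 {x : SL2 F} : x ∈ U0 F ↔ ∃ b, x = sl2U b := Iff.rfl

theorem card_U0 [Finite F] : Nat.card (U0 F) = Nat.card F := by
  refine (Nat.card_congr (Equiv.ofBijective (fun b : F => (⟨sl2U b, b, rfl⟩ : U0 F)) ⟨?_, ?_⟩)).symm
  · intro a b h
    exact sl2U_injective (congrArg Subtype.val h)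
  · rintro ⟨_, b, rfl⟩
    exact ⟨b, rfl⟩

section commutators

variable {Γ : Type*} [Group Γ] (σ : Γ →* SL2 F)

/-- The key computation: the commutator form on `F`. -/
theorem commutator_comap_U0_eq_bot (hsurj : Function.Surjective σ) (hK : σ.ker ≤ center Γ)
    (τ ρ : Fˣ) (hρ : (ρ : F) ^ 2 = 1 + (τ : F) ^ 2) (hw : (τ : F) ^ 4 + (τ : F) ^ 2 + 1 ≠ 0) :
    ⁅(U0 F).comap σ, (U0 F).comap σ⁆ = ⊥ := by
  classical
  let s : F → Γ := fun a => Function.surjInv hsurj (sl2U a)
  have hs : ∀ a, σ (s a) = sl2U a := fun a => Function.surjInv_eq hsurj _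
  let c : F → F → Γ := fun a b => ⁅s a, s b⁆
  have hcen : ∀ k ∈ σ.ker, ∀ x : Γ, x * k = k * x := fun k hk x =>
    Subgroup.mem_center_iff.mp (hK hk) x
  -- commutators of lifts are in the kernel
  have hker : ∀ {x y : Γ} {a b : F}, σ x = sl2U a → σ y = sl2U b → ⁅x, y⁆ ∈ σ.ker := by
    intro x y a b hx hy
    rw [MonoidHom.mem_ker, commutatorElement_def, map_mul, map_mul, map_mul, map_inv, map_inv, hx, hy]
    have : sl2U a * sl2U b = sl2U b * sl2U a := by
      rw [sl2U_add, sl2U_add, add_comm]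
    rw [this]; group
  -- independence of lift
  have hind : ∀ {x y : Γ} {a b : F}, σ x = sl2U a → σ y = sl2U b → ⁅x, y⁆ = c a b := by
    intro x y a b hx hy
    have h1 : (s a)⁻¹ * x ∈ σ.ker := by
      rw [MonoidHom.mem_ker, map_mul, map_inv, hs, hx]; group
    have h2 : (s b)⁻¹ * y ∈ σ.ker := by
      rw [MonoidHom.mem_ker, map_mul, map_inv, hs, hy]; group
    set k := (s a)⁻¹ * x with hk
    set l := (s b)⁻¹ * y with hl
    have ex : x = s a * k := by rw [hk]; group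
    have ey : y = s b * l := by rw [hl]; group
    rw [ex, ey]
    show ⁅s a * k, s b * l⁆ = ⁅s a, s b⁆
    simp only [commutatorElement_def, mul_inv_rev]
    have e1 : s a * k * (s b * l) * (k⁻¹ * (s a)⁻¹) * (l⁻¹ * (s b)⁻¹)
        = s a * (k * s b * l * k⁻¹) * (s a)⁻¹ * l⁻¹ * (s b)⁻¹ := by group
    rw [e1]
    have e2 : k * s b * l * k⁻¹ = s b * l := by
      rw [← hcen k h1 (s b)]
      have := hcen k h1 l
      rw [mul_assoc (s b), ← this]; group
    rw [e2]
    have e3 : s a * (s b * l) * (s a)⁻¹ * l⁻¹ * (s b)⁻¹ = s a * s b * (l * (s a)⁻¹ * l⁻¹) * (s b)⁻¹ := by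
      group
    rw [e3]
    have e4 : l * (s a)⁻¹ * l⁻¹ = (s a)⁻¹ := by
      rw [← hcen l h2 (s a)⁻¹]; group
    rw [e4]
  have hcK : ∀ a b, c a b ∈ σ.ker := fun a b => hker (hs a) (hs b)
  -- additivity
  have hadd1 : ∀ a a' b, c (a + a') b = c a b * c a' b := by
    intro a a' b
    have h1 : σ (s a * s a') = sl2U (a + a') := by rw [map_mul, hs, hs, sl2U_add]
    rw [← hind h1 (hs b)]
    have e : ⁅s a * s a', s b⁆ = s a * c a' b * (s a)⁻¹ * c a b := by
      show _ = s a * ⁅s a', s b⁆ * (s a)⁻¹ * ⁅s a, s b⁆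
      simp only [commutatorElement_def]; group
    rw [e, hcen _ (hcK a' b) (s a), mul_inv_cancel_right]
    exact hcen _ (hcK a' b) _ |>.symm
  have hadd2 : ∀ a b b', c a (b + b') = c a b * c a b' := by
    intro a b b'
    have h1 : σ (s b * s b') = sl2U (b + b') := by rw [map_mul, hs, hs, sl2U_add]
    rw [← hind (hs a) h1]
    have e : ⁅s a, s b * s b'⁆ = c a b * (s b * c a b' * (s b)⁻¹) := by
      show _ = ⁅s a, s b⁆ * (s b * ⁅s a, s b'⁆ * (s b)⁻¹)
      simp only [commutatorElement_def]; group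
    rw [e, hcen _ (hcK a b') (s b), mul_inv_cancel_right]
  -- conjugation invariance
  have hconj : ∀ (t : Fˣ) (a b : F), c ((t : F) ^ 2 * a) ((t : F) ^ 2 * b) = c a b := by
    intro t a b
    obtain ⟨d, hd⟩ := hsurj (sl2D t)
    have h1 : ∀ a, σ (d * s a * d⁻¹) = sl2U ((t : F) ^ 2 * a) := by
      intro a
      rw [map_mul, map_mul, map_inv, hd, hs, sl2D_conj_U]
    rw [← hind (h1 a) (h1 b)]
    have e : ⁅d * s a * d⁻¹, d * s b * d⁻¹⁆ = d * c a b * d⁻¹ := by
      show _ = d * ⁅s a, s b⁆ * d⁻¹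
      simp only [commutatorElement_def]; group
    rw [e, hcen _ (hcK a b) d, mul_inv_cancel_right]
  -- the field computation
  set u : F := (τ : F) ^ 2 with hu
  set v : F := (ρ : F) ^ 2 with hv
  have hu0 : u ≠ 0 := pow_ne_zero _ τ.ne_zero
  have hv0 : v ≠ 0 := pow_ne_zero _ ρ.ne_zero
  have hscale1 : ∀ a b, c (u * a) b = c a (u⁻¹ * b) := by
    intro a b
    have := hconj τ a (u⁻¹ * b)
    rw [← this, ← hu, mul_inv_cancel_left₀ hu0]
  have hscale2 : ∀ a b, c (v * a) b = c a (v⁻¹ * b) := by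
    intro a b
    have := hconj ρ a (v⁻¹ * b)
    rw [← this, ← hv, mul_inv_cancel_left₀ hv0]
  set w : F := 1 + u⁻¹ - v⁻¹ with hw'
  have hw0 : w ≠ 0 := by
    have h1 : w = (u ^ 2 + u + 1) / (u * v) := by
      rw [hw', hρ]
      have h1u : 1 + u ≠ 0 := by rw [← hρ]; exact hv0
      field_simp
      ring
    rw [h1]
    refine div_ne_zero ?_ (mul_ne_zero hu0 hv0)
    convert hw using 2
    rw [hu]; ring
  have hzero : ∀ a b, c a (w * b) = 1 := by
    intro a b
    have h1 : c (v * a) b = c a b * c (u * a) b := by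
      rw [hρ, add_mul, one_mul, hadd1]
    rw [hscale1, hscale2] at h1
    have h2 : c a ((1 + u⁻¹) * b) = c a b * c a (u⁻¹ * b) := by
      rw [add_mul, one_mul, hadd2]
    have h3 : (1 + u⁻¹) * b = v⁻¹ * b + w * b := by rw [hw']; ring
    rw [h3, hadd2, ← h1] at h2
    exact mul_eq_left.mp h2
  have hall : ∀ a b, c a b = 1 := by
    intro a b
    have := hzero a (w⁻¹ * b)
    rwa [mul_inv_cancel_left₀ hw0] at this
  rw [eq_bot_iff, Subgroup.commutator_le]
  intro x hx y hy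
  obtain ⟨a, ha⟩ := Subgroup.mem_comap.mp hx
  obtain ⟨b, hb⟩ := Subgroup.mem_comap.mp hy
  rw [hind ha hb, hall]
  exact one_mem _

end commutators

end Cfsg.Agent.Lib.KnownSimple
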