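import Mathlib
import Cfsg.Agent.Lib.KnownSimple.SL2SchurA
import Cfsg.Agent.Lib.Classical.SL2Order
import Cfsg.Agent.Lib.Classical.SylowSL2

/-!
# Field and matrix facts for the Schur multiplier of `SL₂(F)`
-/

set_option autoImplicit false

namespace Cfsg.Agent.Lib.KnownSimple

open Subgroup Cfsg.Agent.Lib.Known
open scoped commutatorElement

variable {F : Type*} [Field F]

section field

variable [Fintype F]

open Polynomial in
/-- A polynomial of degree below the order of the field has a non-root. -/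
theorem exists_nonroot (P : F[X]) (h0 : P ≠ 0) (hd : P.natDegree < Fintype.card F) :
    ∃ w : F, P.eval w ≠ 0 := by
  classical
  by_contra hc
  push Not at hc
  have h1 : (Finset.univ : Finset F) ⊆ P.roots.toFinset := by
    intro w _
    rw [Multiset.mem_toFinset, Polynomial.mem_roots h0]
    exact hc w
  have h2 := Finset.card_le_card h1
  rw [Finset.card_univ] at h2
  have h3 := Multiset.toFinset_card_le P.roots
  have h4 := Polynomial.card_roots' P
  omega

open Polynomial in
/-- Characteristic two: an element outside `F₄`. -/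
theorem exists_squares_char_two (h2 : (2 : F) = 0) (hq : 4 < Fintype.card F) :
    ∃ τ ρ : Fˣ, (ρ : F) ^ 2 = 1 + (τ : F) ^ 2 ∧ (τ : F) ^ 4 + (τ : F) ^ 2 + 1 ≠ 0 := by
  have hchar : ringChar F = 2 := by
    have hd : ringChar F ∣ 2 := ringChar.dvd (R := F) (x := 2) (by exact_mod_cast h2)
    rcases (Nat.dvd_prime Nat.prime_two).1 hd with hp | hp
    · exact absurd hp CharP.ringChar_ne_one
    · exact hp
  let P : F[X] := X * (X + 1) * (X ^ 2 + X + 1)
  have hP : P.natDegree = 4 := by
    have h1 : (X : F[X]).natDegree = 1 := natDegree_X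
    have h2' : ((X : F[X]) + 1).natDegree = 1 := by compute_degree!
    have h3 : ((X : F[X]) ^ 2 + X + 1).natDegree = 2 := by compute_degree!
    simp only [P]
    rw [natDegree_mul (mul_ne_zero X_ne_zero (by intro h; simp [h] at h2')) (by intro h; simp [h] at h3),
      natDegree_mul X_ne_zero (by intro h; simp [h] at h2'), h1, h2', h3]
  have hP0 : P ≠ 0 := by
    intro h
    simp [h] at hP
  obtain ⟨u, hu⟩ := exists_nonroot P hP0 (by omega)
  simp only [P, eval_mul, eval_add, eval_pow, eval_X, eval_one, mul_ne_zero_iff] at hu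
  obtain ⟨⟨hu0, hu1⟩, hu2⟩ := hu
  obtain ⟨s, hs⟩ := FiniteField.isSquare_of_char_two hchar u
  obtain ⟨r, hr⟩ := FiniteField.isSquare_of_char_two hchar (u + 1)
  have hs0 : s ≠ 0 := by
    rintro rfl
    simp at hs; exact hu0 hs
  have hr0 : r ≠ 0 := by
    rintro rfl
    simp at hr; exact hu1 hr
  refine ⟨Units.mk0 s hs0, Units.mk0 r hr0, ?_, ?_⟩
  · simp only [Units.val_mk0]
    rw [pow_two, pow_two, ← hs, ← hr]; ring
  · simp only [Units.val_mk0]
    have : s ^ 4 + s ^ 2 + 1 = u ^ 2 + u + 1 := by rw [hs]; ring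
    rw [this]
    exact hu2

open Polynomial in
/-- Odd characteristic: the parametrisation of `y² - x² = 1`. -/
theorem exists_squares_odd (h2 : (2 : F) ≠ 0) (hq : 13 < Fintype.card F) :
    ∃ τ ρ : Fˣ, (ρ : F) ^ 2 = 1 + (τ : F) ^ 2 ∧ (τ : F) ^ 4 + (τ : F) ^ 2 + 1 ≠ 0 := by
  let P : F[X] := X * (X ^ 4 - 1) * (X ^ 8 + C 14 * X ^ 4 + 1)
  have h1 : (X : F[X]).natDegree = 1 := natDegree_X
  have h2' : ((X : F[X]) ^ 4 - 1).natDegree = 4 := by compute_degree!
  have h3 : ((X : F[X]) ^ 8 + C 14 * X ^ 4 + 1).natDegree = 8 := by compute_degree!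
  have h2n : ((X : F[X]) ^ 4 - 1) ≠ 0 := by intro h; simp [h] at h2'
  have h3n : ((X : F[X]) ^ 8 + C 14 * X ^ 4 + 1) ≠ 0 := by intro h; simp [h] at h3
  have hP : P.natDegree = 13 := by
    simp only [P]
    rw [natDegree_mul (mul_ne_zero X_ne_zero h2n) h3n, natDegree_mul X_ne_zero h2n, h1, h2', h3]
  have hP0 : P ≠ 0 := mul_ne_zero (mul_ne_zero X_ne_zero h2n) h3n
  obtain ⟨w, hw⟩ := exists_nonroot P hP0 (by omega)
  simp only [P, eval_mul, eval_add, eval_sub, eval_pow, eval_X, eval_one, eval_C, mul_ne_zero_iff] at hw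
  obtain ⟨⟨hw0, hw4⟩, hw8⟩ := hw
  have hx : (w⁻¹ - w) / 2 ≠ 0 := by
    intro h
    apply hw4
    have h5 : w⁻¹ - w = 0 := by
      rcases div_eq_zero_iff.mp h with h | h
      · exact h
      · exact absurd h h2
    have h6 : w ^ 2 = 1 := by
      field_simp at h5
      linear_combination -h5
    calc w ^ 4 - 1 = (w ^ 2) ^ 2 - 1 := by ring
      _ = 0 := by rw [h6]; ring
  have hy : (w⁻¹ + w) / 2 ≠ 0 := by
    intro h
    apply hw4
    have h5 : w⁻¹ + w = 0 := by
      rcases div_eq_zero_iff.mp h with h | h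
      · exact h
      · exact absurd h h2
    have h6 : w ^ 2 = -1 := by
      field_simp at h5
      linear_combination h5
    calc w ^ 4 - 1 = (w ^ 2) ^ 2 - 1 := by ring
      _ = 0 := by rw [h6]; ring
  refine ⟨Units.mk0 _ hx, Units.mk0 _ hy, ?_, ?_⟩
  · simp only [Units.val_mk0]
    field_simp
    ring
  · simp only [Units.val_mk0]
    intro h
    apply hw8
    have e : w ^ 8 + 14 * w ^ 4 + 1
        = 16 * w ^ 4 * (((w⁻¹ - w) / 2) ^ 4 + ((w⁻¹ - w) / 2) ^ 2 + 1) := by
      field_simp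
      ring
    rw [e, h, mul_zero]

/-- Non-prime fields other than `F₄`, `F₉` have the needed squares. -/
theorem exists_squares {p n : ℕ} (hp : p.Prime) (hn : 2 ≤ n) (hq : Fintype.card F = p ^ n)
    (hpF : (p : F) = 0) (h4 : Fintype.card F ≠ 4) (h9 : Fintype.card F ≠ 9) :
    ∃ τ ρ : Fˣ, (ρ : F) ^ 2 = 1 + (τ : F) ^ 2 ∧ (τ : F) ^ 4 + (τ : F) ^ 2 + 1 ≠ 0 := by
  by_cases h2 : (2 : F) = 0
  · refine exists_squares_char_two h2 ?_
    have hcard : 2 ≤ Fintype.card F := Fintype.one_lt_card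
    have hpn : 2 ^ 2 ≤ p ^ n := by
      calc 2 ^ 2 ≤ p ^ 2 := Nat.pow_le_pow_left hp.two_le 2
        _ ≤ p ^ n := Nat.pow_le_pow_right hp.pos hn
    rw [← hq] at hpn
    norm_num at hpn
    omega
  · refine exists_squares_odd h2 ?_
    have hp2 : p ≠ 2 := by
      rintro rfl
      exact h2 (by exact_mod_cast hpF)
    have hp3 : 3 ≤ p := by
      have := hp.two_le
      omega
    rw [hq]
    rw [hq] at h9
    -- cases on `p` and `n`
    by_cases hp5 : 5 ≤ p
    · calc 13 < 5 ^ 2 := by norm_num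
        _ ≤ p ^ 2 := Nat.pow_le_pow_left hp5 2
        _ ≤ p ^ n := Nat.pow_le_pow_right hp.pos hn
    · have hp' : p = 3 ∨ p = 4 := by omega
      rcases hp' with rfl | rfl
      · by_cases hn2 : n = 2
        · subst hn2
          exact absurd (by norm_num) h9
        · calc 13 < 3 ^ 3 := by norm_num
            _ ≤ 3 ^ n := Nat.pow_le_pow_right (by norm_num) (by omega)
      · exact absurd hp (by norm_num)

end field

end Cfsg.Agent.Lib.KnownSimple
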