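import Mathlib
import Cfsg.Agent.Lib.KnownSimple.SL2SchurB

/-!
# Tori in `SL₂(F)`: explicit cyclic subgroups and dicyclic subgroups
-/

set_option autoImplicit false

namespace Cfsg.Agent.Lib.KnownSimple

open Subgroup Cfsg.Agent.Lib.Known
open scoped commutatorElement

variable {F : Type*} [Field F]

theorem sl2D_mul (a b : Fˣ) : sl2D a * sl2D b = sl2D (a * b) := by
  apply sl2_ext <;> simp [sl2_mul_apply, mul_comm]

theorem sl2D_one : sl2D (1 : Fˣ) = 1 := by
  apply sl2_ext <;> simp

/-- The diagonal homomorphism. -/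
def sl2DHom (F : Type*) [Field F] : Fˣ →* SL2 F where
  toFun := sl2D
  map_one' := sl2D_one
  map_mul' a b := (sl2D_mul a b).symm

theorem sl2DHom_injective : Function.Injective (sl2DHom F) := by
  intro a b h
  apply Units.ext
  have := congrArg (fun g : SL2 F => (g : Matrix (Fin 2) (Fin 2) F) 0 0) h
  simpa [sl2DHom] using this

theorem orderOf_sl2D (a : Fˣ) : orderOf (sl2D a) = orderOf a :=
  orderOf_injective (sl2DHom F) sl2DHom_injective a

theorem exists_orderOf_sl2D [Fintype F] : ∃ t : Fˣ, orderOf (sl2D t) = Fintype.card F - 1 := by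
  obtain ⟨t, ht⟩ := IsCyclic.exists_generator (α := Fˣ)
  refine ⟨t, ?_⟩
  rw [orderOf_sl2D, orderOf_eq_card_of_forall_mem_zpowers ht, Nat.card_units, Nat.card_eq_fintype_card]

theorem sl2W_conj_D (t : Fˣ) : sl2W * sl2D t * sl2W⁻¹ = (sl2D t)⁻¹ := by
  apply sl2_ext <;> simp [sl2W, sl2_mul_apply, sl2_inv_00, sl2_inv_01, sl2_inv_10, sl2_inv_11]

theorem sl2W_sq : ((sl2W ^ 2 : SL2 F) : Matrix (Fin 2) (Fin 2) F) = -1 := by
  rw [pow_two]
  ext i j
  fin_cases i <;> fin_cases j <;> simp [sl2W, sl2_mul_apply]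

/-- The only involution of `SL₂(F)`, `F` of odd characteristic. -/
theorem sl2_sq_eq_one (h2 : (2 : F) ≠ 0) (x : SL2 F) (hx : x ^ 2 = 1) (hx1 : x ≠ 1) :
    (x : Matrix (Fin 2) (Fin 2) F) = -1 := by
  have hdet := sl2_det x
  have h00 := congrArg (fun g : SL2 F => (g : Matrix (Fin 2) (Fin 2) F) 0 0) hx
  have h01 := congrArg (fun g : SL2 F => (g : Matrix (Fin 2) (Fin 2) F) 0 1) hx
  have h10 := congrArg (fun g : SL2 F => (g : Matrix (Fin 2) (Fin 2) F) 1 0) hx
  have h11 := congrArg (fun g : SL2 F => (g : Matrix (Fin 2) (Fin 2) F) 1 1) hx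
  simp only [pow_two, sl2_mul_apply, Matrix.SpecialLinearGroup.coe_one, Matrix.one_apply_eq,
    Matrix.one_apply_ne (zero_ne_one (α := Fin 2)), Matrix.one_apply_ne (one_ne_zero (α := Fin 2))] at h00 h01 h10 h11
  set a := (x : Matrix (Fin 2) (Fin 2) F) 0 0
  set b := (x : Matrix (Fin 2) (Fin 2) F) 0 1
  set c := (x : Matrix (Fin 2) (Fin 2) F) 1 0
  set d := (x : Matrix (Fin 2) (Fin 2) F) 1 1
  have ht : a + d ≠ 0 := by
    intro h
    apply h2
    have : (2 : F) = a * (a + d) := by linear_combination -h00 - hdet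
    rw [this, h, mul_zero]
  have hb : b = 0 := by
    have : b * (a + d) = 0 := by linear_combination h01
    exact (mul_eq_zero.mp this).resolve_right ht
  have hc : c = 0 := by
    have : c * (a + d) = 0 := by linear_combination h10
    exact (mul_eq_zero.mp this).resolve_right ht
  have had : a = d := by
    have : (a - d) * (a + d) = 0 := by
      rw [hb] at h00 h11
      rw [hc] at h11
      linear_combination h00 - h11
    have := (mul_eq_zero.mp this).resolve_right ht
    exact sub_eq_zero.mp this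
  have ha : (a - 1) * (a + 1) = 0 := by
    rw [hb] at h00
    linear_combination h00
  rcases mul_eq_zero.mp ha with h | h
  · exfalso
    apply hx1
    have ha1 : a = 1 := sub_eq_zero.mp h
    apply sl2_ext
    · simpa using ha1
    · simpa using hb
    · simpa using hc
    · have : d = 1 := by rw [← had]; exact ha1
      simpa using this
  · have ha1 : a = -1 := eq_neg_of_add_eq_zero_left h
    ext i j
    fin_cases i <;> fin_cases j
    · simpa using ha1
    · simpa using hb
    · simpa using hc
    · have : d = -1 := by rw [← had]; exact ha1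
      simpa using this

section nonsplit

variable [Fintype F] {p : ℕ} [Fact p.Prime] [CharP F p]

/-- An element of order `q + 1`, not scalar, whose trace `τ` has `τ² ≠ 4` in odd characteristic. -/
theorem exists_nonsplit_aux (p : ℕ) [Fact p.Prime] [CharP F p] :
    ∃ h : SL2 F, orderOf h = Fintype.card F + 1 ∧ ¬ m2Scalar (h : Matrix (Fin 2) (Fin 2) F) ∧
      ((2 : F) ≠ 0 → (h : Matrix (Fin 2) (Fin 2) F).trace ^ 2 ≠ 4) := by
  classical
  set q := Fintype.card F with hq
  have hq1 : 1 < q := Fintype.one_lt_card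
  let E := FiniteField.Extension F p 2
  have hfin : Module.finrank F E = 2 := FiniteField.finrank_extension F p 2
  have hcard : Nat.card E = q ^ 2 := by
    rw [FiniteField.natCard_extension, Nat.card_eq_fintype_card]
  let ℬ : Module.Basis (Fin 2) F E := Module.finBasisOfFinrankEq F E hfin
  let L := Algebra.leftMulMatrix ℬ
  have hL : Function.Injective L := Algebra.leftMulMatrix_injective ℬ
  have hfiniteE : Finite E := inferInstance
  obtain ⟨ξ, hξ⟩ := IsCyclic.exists_generator (α := Eˣ)
  have hordξ : orderOf ξ = q ^ 2 - 1 := by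
    rw [orderOf_eq_card_of_forall_mem_zpowers hξ, Nat.card_units, hcard]
  obtain ⟨r, hr⟩ : ∃ r, q = r + 1 := ⟨q - 1, by omega⟩
  have hr0 : 0 < r := by omega
  have hq2 : q ^ 2 - 1 = r * (q + 1) := by
    rw [hr]
    have : (r + 1) ^ 2 = r * (r + 1 + 1) + 1 := by ring
    omega
  let a : Eˣ := ξ ^ r
  have horda : orderOf a = q + 1 := by
    have h1 := orderOf_pow' ξ hr0.ne'
    rw [hordξ, hq2, Nat.gcd_eq_right (Dvd.intro _ rfl), Nat.mul_div_cancel_left _ hr0] at h1
    exact h1
  have hr' : Nat.card F - 1 = r := by rw [Nat.card_eq_fintype_card, ← hq]; omega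
  have hnormpow : ∀ x : E, algebraMap F E (Algebra.norm F x) = x ^ (q + 1) := by
    intro x
    rw [FiniteField.algebraMap_norm_eq_pow, hcard, hr', hq2, Nat.mul_div_cancel_left _ hr0]
  have hnorm : Algebra.norm F (a : E) = 1 := by
    apply (algebraMap F E).injective
    rw [hnormpow, map_one]
    have := pow_orderOf_eq_one a
    rw [horda] at this
    have h5 := congrArg Units.val this
    simpa using h5
  have hdet : (L (a : E)).det = 1 := by
    rw [← hnorm, Algebra.norm_eq_matrix_det ℬ]
  let h : SL2 F := ⟨L (a : E), hdet⟩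
  have hpow : ∀ n : ℕ, h ^ n = 1 ↔ a ^ n = 1 := by
    intro n
    constructor
    · intro hn
      have h1 : ((h ^ n : SL2 F) : Matrix (Fin 2) (Fin 2) F) = 1 := by rw [hn]; rfl
      rw [Matrix.SpecialLinearGroup.coe_pow] at h1
      have h2 : L ((a : E) ^ n) = L 1 := by
        rw [map_pow, map_one]; exact h1
      have h3 := hL h2
      exact Units.ext (by simpa using h3)
    · intro hn
      apply Subtype.ext
      rw [Matrix.SpecialLinearGroup.coe_pow]
      have h3 : (a : E) ^ n = 1 := by
        have := congrArg Units.val hn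
        simpa using this
      show (L (a : E)) ^ n = 1
      rw [← map_pow, h3, map_one]
  have hordh : orderOf h = q + 1 := by
    rw [← horda]
    exact orderOf_eq_orderOf_iff.mpr hpow
  have hnonscalar : ∀ s : F, (a : E) ≠ algebraMap F E s := by
    intro s hs
    have hs0 : s ≠ 0 := by
      rintro rfl
      rw [map_zero] at hs
      exact a.ne_zero hs
    have h1 : s ^ r = 1 := by
      have := FiniteField.pow_card_sub_one_eq_one s hs0
      rwa [← hq, show q - 1 = r by omega] at this
    have h2 : a ^ r = 1 := by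
      apply Units.ext
      push_cast
      rw [hs, ← map_pow, h1, map_one]
    have h3 := orderOf_dvd_of_pow_eq_one h2
    rw [horda] at h3
    have := Nat.le_of_dvd hr0 h3
    omega
  have hLalg : ∀ s : F, L (algebraMap F E s) = s • (1 : Matrix (Fin 2) (Fin 2) F) := by
    intro s
    rw [AlgHom.commutes, Algebra.algebraMap_eq_smul_one]
  have hnonm : ¬ m2Scalar (h : Matrix (Fin 2) (Fin 2) F) := by
    intro hm
    have h1 := (m2Scalar_iff _).mp hm
    apply hnonscalar ((h : Matrix (Fin 2) (Fin 2) F) 0 0)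
    apply hL
    rw [hLalg]
    exact h1
  refine ⟨h, hordh, hnonm, ?_⟩
  intro h2 ht
  have hc := Cfsg.Agent.Lib.Classical.cayley_two (h : Matrix (Fin 2) (Fin 2) F) h.2
  set τ := (h : Matrix (Fin 2) (Fin 2) F).trace with hτ
  have hE : (a : E) ^ 2 - algebraMap F E τ * (a : E) + 1 = 0 := by
    apply hL
    have e : L ((a : E) ^ 2 - algebraMap F E τ * (a : E) + 1)
        = (h : Matrix (Fin 2) (Fin 2) F) ^ 2 - (algebraMap F _ τ) * (h : Matrix (Fin 2) (Fin 2) F) + 1 := by
      rw [map_add, map_sub, map_mul, map_pow, map_one, hLalg, Algebra.algebraMap_eq_smul_one]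
    rw [e, map_zero]
    exact hc
  have h2E : (2 : E) ≠ 0 := by
    intro h'
    apply h2
    apply (algebraMap F E).injective
    rw [map_zero, map_ofNat]
    exact h'
  have hsq : (2 * (a : E) - algebraMap F E τ) ^ 2 = 0 := by
    have h4 : algebraMap F E τ ^ 2 = 4 := by
      rw [← map_pow, ht, map_ofNat]
    linear_combination 4 * hE + h4
  have h5 : 2 * (a : E) = algebraMap F E τ := sub_eq_zero.mp (pow_eq_zero_iff (two_ne_zero)|>.mp hsq)
  apply hnonscalar (τ / 2)
  rw [map_div₀, ← h5, map_ofNat]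
  rw [mul_div_cancel_left₀ _ h2E]

/-- The companion matrix of the non-split torus in odd characteristic. -/
theorem exists_sl2C_order (p : ℕ) [Fact p.Prime] [CharP F p] (h2 : (2 : F) ≠ 0) :
    ∃ τ : F, τ ^ 2 ≠ 4 ∧ orderOf (sl2C τ) = Fintype.card F + 1 := by
  obtain ⟨h, hord, hn, ht⟩ := exists_nonsplit_aux (F := F) p
  have hτ := ht h2
  refine ⟨_, hτ, ?_⟩
  have hodd : Odd (Fintype.card F) := Nat.odd_iff.mpr (FiniteField.odd_card_of_char_ne_two (by
    intro hc
    apply h2
    have : ((ringChar F : ℕ) : F) = 0 := ringChar.Nat.cast_ringChar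
    rw [hc] at this
    exact_mod_cast this))
  have hconj : IsConj h (sl2C (h : Matrix (Fin 2) (Fin 2) F).trace) := by
    apply sl2_isConj_of_trace h _ hn
    · intro hm
      have := hm.1
      simp at this
    · rw [sl2C_trace]
    · intro δ _
      rw [sl2C_trace]
      exact form_surj_odd hodd _ hτ δ
  obtain ⟨c, hc⟩ := isConj_iff.mp hconj
  rw [← hc, ← hord]
  have : orderOf (c * h * c⁻¹) = orderOf h := by
    exact (MulAut.conj c).orderOf_eq h
  exact this

/-- The normalizing element. -/
theorem exists_conj_sl2C (h2 : (2 : F) ≠ 0) (τ : F) (hτ : τ ^ 2 ≠ 4) :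
    ∃ b : SL2 F, b * sl2C τ * b⁻¹ = (sl2C τ)⁻¹ ∧ ((b ^ 2 : SL2 F) : Matrix (Fin 2) (Fin 2) F) = -1 := by
  have hodd : Odd (Fintype.card F) := Nat.odd_iff.mpr (FiniteField.odd_card_of_char_ne_two (by
    intro hc
    apply h2
    have : ((ringChar F : ℕ) : F) = 0 := ringChar.Nat.cast_ringChar
    rw [hc] at this
    exact_mod_cast this))
  obtain ⟨x, y, hxy⟩ := form_surj_odd hodd τ hτ (-1)
  let b : SL2 F := sl2Mk x (τ * x + y) y (-x) (by linear_combination -hxy)
  refine ⟨b, ?_, ?_⟩
  · rw [mul_inv_eq_iff_eq_mul]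
    apply sl2_ext <;> simp [sl2_mul_apply, sl2_inv_00, sl2_inv_01, sl2_inv_10, sl2_inv_11, b] <;> ring
  · rw [pow_two]
    ext i j
    fin_cases i <;> fin_cases j <;> simp [sl2_mul_apply, b] <;> first | linear_combination hxy | linear_combination -hxy | ring

end nonsplit

section dicyclic

variable {G : Type*} [Group G] [Finite G]

/-- The order of the group generated by `g` and `b`. -/
theorem card_closure_dicyclic (g b : G) (hb1 : b * g * b⁻¹ = g⁻¹) (hb2 : b ^ 2 ∈ zpowers g)
    (hb : b ∉ zpowers g) : Nat.card (closure {g, b}) = 2 * orderOf g := by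
  set Z := zpowers g with hZ
  set T := closure {g, b} with hT
  have hgT : g ∈ T := subset_closure (by simp)
  have hbT : b ∈ T := subset_closure (by simp)
  have hZT : Z ≤ T := by
    rw [hZ, Subgroup.zpowers_le]; exact hgT
  have hconj : ∀ z ∈ Z, b * z * b⁻¹ ∈ Z := by
    intro z hz
    obtain ⟨i, rfl⟩ := Subgroup.mem_zpowers_iff.mp hz
    rw [← conj_zpow, hb1]
    exact zpow_mem (inv_mem (Subgroup.mem_zpowers g)) _
  have hconj' : ∀ z ∈ Z, b⁻¹ * z * b ∈ Z := by
    intro z hz
    obtain ⟨i, rfl⟩ := Subgroup.mem_zpowers_iff.mp hz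
    have hb1' : b⁻¹ * g * b = g⁻¹ := by
      have : g = b⁻¹ * g⁻¹ * b := by
        rw [← hb1]; group
      calc b⁻¹ * g * b = (b⁻¹ * g⁻¹ * b)⁻¹ := by group
        _ = g⁻¹ := by rw [← this]
    have := conj_zpow (a := b⁻¹) (b := g) (i := i)
    simp only [inv_inv] at this
    rw [← this, hb1']
    exact zpow_mem (inv_mem (Subgroup.mem_zpowers g)) _
  have hb2' : b * b ∈ Z := by rwa [← pow_two]
  have hbinv : b⁻¹ * b⁻¹ ∈ Z := by
    have := inv_mem hb2'
    simpa using this
  have hunion : ∀ x ∈ T, x ∈ Z ∨ x * b ∈ Z := by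
    intro x hx
    induction hx using Subgroup.closure_induction with
    | mem x hx =>
      rcases hx with rfl | hx
      · exact Or.inl (Subgroup.mem_zpowers _)
      · rw [Set.mem_singleton_iff.mp hx]; exact Or.inr hb2'
    | one => exact Or.inl (one_mem _)
    | mul x y _ _ hx hy =>
      rcases hx with hx | hx <;> rcases hy with hy | hy
      · exact Or.inl (mul_mem hx hy)
      · right
        rw [mul_assoc]; exact mul_mem hx hy
      · right
        have e : x * y * b = (x * b) * (b⁻¹ * y * b) := by group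
        rw [e]
        exact mul_mem hx (hconj' y hy)
      · left
        have e : x * y = (x * b) * (b⁻¹ * (y * b) * b) * (b⁻¹ * b⁻¹) := by group
        rw [e]
        exact mul_mem (mul_mem hx (hconj' _ hy)) hbinv
    | inv x _ hx =>
      rcases hx with hx | hx
      · exact Or.inl (inv_mem hx)
      · right
        have h1 : b⁻¹ * x⁻¹ ∈ Z := by
          have := inv_mem hx
          simpa using this
        have h2 := hconj _ h1
        have e : x⁻¹ * b = b * (b⁻¹ * x⁻¹) * b⁻¹ * (b * b) := by group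
        rw [e]
        exact mul_mem h2 hb2'
  have hrel : Z.relIndex T = 2 := by
    rw [Subgroup.relIndex_eq_two_iff_exists_notMem_and]
    refine ⟨b, hbT, hb, fun x hx => ?_⟩
    exact (hunion x hx).symm
  have h1 : Nat.card (Z.subgroupOf T) * (Z.subgroupOf T).index = Nat.card T :=
    Subgroup.card_mul_index _
  have h2 : Nat.card (Z.subgroupOf T) = Nat.card Z :=
    Nat.card_congr (Subgroup.subgroupOfEquivOfLe hZT).toEquiv
  have h3 : (Z.subgroupOf T).index = 2 := hrel
  rw [h2, h3, Nat.card_zpowers] at h1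
  omega

end dicyclic

end Cfsg.Agent.Lib.KnownSimple
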