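import Mathlib
import Cfsg.Agent.Lib.KnownSimple.SL2SchurC

/-!
# Stem extensions of `SL₂(F)` with `|F| ≠ 4, 9` are trivial
-/

set_option autoImplicit false

namespace Cfsg.Agent.Lib.KnownSimple

open Subgroup Cfsg.Agent.Lib.Known
open scoped commutatorElement

variable {F : Type*} [Field F]

/-- From the abstract hypotheses on `g`, `b`: what `eq_one_of_dicyclic` and the index want. -/
theorem dicyclic_facts (h2 : (2 : F) ≠ 0) (g b : SL2 F) (m : ℕ) (hm : 2 ≤ m) (hg : orderOf g = 2 * m)
    (hb1 : b * g * b⁻¹ = g⁻¹) (hb2 : ((b ^ 2 : SL2 F) : Matrix (Fin 2) (Fin 2) F) = -1) :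
    b ^ 2 = g ^ m ∧ b ∉ zpowers g := by
  constructor
  · apply Subtype.ext
    show ((b ^ 2 : SL2 F) : Matrix (Fin 2) (Fin 2) F) = ((g ^ m : SL2 F) : Matrix (Fin 2) (Fin 2) F)
    rw [hb2, sl2_sq_eq_one h2 (g ^ m)]
    · rw [← pow_mul, mul_comm, ← hg, pow_orderOf_eq_one]
    · intro h
      have := orderOf_dvd_of_pow_eq_one h
      rw [hg] at this
      have := Nat.le_of_dvd (by omega) this
      omega
  · intro hb
    obtain ⟨i, rfl⟩ := Subgroup.mem_zpowers_iff.mp hb
    have h1 : g ^ i * g * (g ^ i)⁻¹ = g := by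
      have : Commute (g ^ i) g := (Commute.refl g).zpow_left i
      rw [this.eq]; group
    rw [h1] at hb1
    have h3 : g ^ 2 = 1 := by
      rw [pow_two]
      nth_rewrite 1 [hb1]
      group
    have := orderOf_dvd_of_pow_eq_one h3
    rw [hg] at this
    have := Nat.le_of_dvd (by norm_num) this
    omega

/-- Main theorem: stem extensions of `SL₂(F)` are trivial when `|F| ≠ 4, 9`. -/
theorem ker_eq_bot_sl2 [Fintype F] (h4 : Fintype.card F ≠ 4) (h9 : Fintype.card F ≠ 9)
    {Γ : Type*} [Group Γ] [Finite Γ] (σ : Γ →* SL2 F) (hσ : Cfsg.IsStemExtension σ) :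
    σ.ker = ⊥ := by
  classical
  obtain ⟨hsurj, hK, hK'⟩ := hσ
  obtain ⟨p, hc⟩ := CharP.exists F
  obtain ⟨n, hp, hq⟩ := FiniteField.card F p
  have hfp : Fact p.Prime := ⟨hp⟩
  obtain ⟨k, hk⟩ : ∃ k, Fintype.card F = k + 1 := ⟨Fintype.card F - 1, by
    have : 1 < Fintype.card F := Fintype.one_lt_card
    omega⟩
  have hk0 : 0 < k := by
    have : 1 < Fintype.card F := Fintype.one_lt_card
    omega
  have hG : Nat.card (SL2 F) = (k + 1) * (k * (k + 2)) := by
    have := Cfsg.Agent.Lib.Classical.card_SL2_eq (F := F)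
    rw [hk] at this
    rw [this]
    congr 1
    have e : (k + 1) ^ 2 = k * (k + 2) + 1 := by ring
    omega
  have hidx : ∀ (T : Subgroup (SL2 F)) (c : ℕ), Nat.card T = c → T.index * c = (k + 1) * (k * (k + 2)) := by
    intro T c hT
    rw [← hT, ← hG]
    exact Subgroup.index_mul_card T
  have hpq : p ∣ k + 1 := by
    rw [← hk, hq]
    exact dvd_pow_self p n.ne_zero
  have hpF : (p : F) = 0 := CharP.cast_eq_zero F p
  apply ker_eq_bot_of_prime
  intro z hz hr
  suffices hz1 : z = 1 by
    rw [hz1, orderOf_one] at hr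
    exact Nat.not_prime_one hr
  set r := orderOf z with hrdef
  have hcop : ∀ T : Subgroup (SL2 F), ¬ r ∣ T.index → z ∈ ⁅T.comap σ, T.comap σ⁆ := by
    intro T hT
    exact mem_commutator_comap hsurj hK hK' T hz ((Nat.Prime.coprime_iff_not_dvd hr).2 hT)
  have hrq : r ≠ p → ¬ r ∣ k + 1 := by
    intro hne hd
    rw [← hk, hq] at hd
    exact hne ((Nat.prime_dvd_prime_iff_eq hr hp).mp (hr.dvd_of_dvd_pow hd))
  have hcyc : ∀ g : SL2 F, ¬ r ∣ (zpowers g).index → z = 1 := by
    intro g hg
    have := hcop _ hg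
    rw [commutator_comap_zpowers σ hsurj hK g] at this
    exact this
  by_cases hrp : r = p
  · -- the characteristic
    have hnd : ¬ r ∣ (U0 F).index := by
      have h1 := hidx (U0 F) (k + 1) (by rw [card_U0, Nat.card_eq_fintype_card, hk])
      have h2 : (U0 F).index = k * (k + 2) := by
        have : (U0 F).index * (k + 1) = (k * (k + 2)) * (k + 1) := by rw [h1]; ring
        exact Nat.eq_of_mul_eq_mul_right (by omega) this
      rw [h2, hrp]
      intro hd
      rcases (Nat.Prime.dvd_mul hp).mp hd with hd | hd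
      · have : p ∣ 1 := by
          have h3 := (Nat.dvd_add_right hd).mp hpq
          exact h3
        exact hp.one_lt.ne' (Nat.dvd_one.mp this)
      · have : p ∣ 1 := by
          have h3 : p ∣ (k + 1) + 1 := hd
          exact (Nat.dvd_add_right hpq).mp h3
        exact hp.one_lt.ne' (Nat.dvd_one.mp this)
    have hzU := hcop _ hnd
    by_cases hn1 : (n : ℕ) = 1
    · -- prime field: cyclic
      have hcardU : Nat.card (U0 F) = p := by
        rw [card_U0, Nat.card_eq_fintype_card, hq, hn1, pow_one]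
      have hcy : IsCyclic (U0 F) := isCyclic_of_prime_card hcardU
      obtain ⟨g, hg⟩ := IsCyclic.exists_generator (α := U0 F)
      have hT : U0 F = zpowers (g : SL2 F) := by
        apply le_antisymm
        · intro x hx
          obtain ⟨i, hi⟩ := Subgroup.mem_zpowers_iff.mp (hg ⟨x, hx⟩)
          refine Subgroup.mem_zpowers_iff.mpr ⟨i, ?_⟩
          have := congrArg Subtype.val hi
          simpa using this
        · rw [Subgroup.zpowers_le]; exact g.2
      rw [hT, commutator_comap_zpowers σ hsurj hK] at hzU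
      exact hzU
    · -- non-prime fields
      have hn2 : 2 ≤ (n : ℕ) := by
        have := n.pos
        omega
      obtain ⟨τ, ρ, h1, h2⟩ := exists_squares hp hn2 hq hpF h4 h9
      rw [commutator_comap_U0_eq_bot σ hsurj hK τ ρ h1 h2] at hzU
      exact hzU
  by_cases hr2 : r = 2
  · -- the prime two, odd characteristic
    have h2 : (2 : F) ≠ 0 := by
      intro h20
      have : ((2 : ℕ) : F) = 0 := by exact_mod_cast h20
      have hd := (CharP.cast_eq_zero_iff F p 2).mp this
      have := (Nat.prime_dvd_prime_iff_eq hp Nat.prime_two).mp hd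
      exact hrp (by omega)
    have hqodd : Odd (k + 1) := by
      rw [← hk]
      refine Nat.odd_iff.mpr (FiniteField.odd_card_of_char_ne_two ?_)
      intro hc'
      apply h2
      have : ((ringChar F : ℕ) : F) = 0 := ringChar.Nat.cast_ringChar
      rw [hc'] at this
      exact_mod_cast this
    have hmod : (k + 1) % 4 = 1 ∨ (k + 1) % 4 = 3 := by
      have := Nat.odd_iff.mp hqodd
      omega
    have final : ∀ (g b : SL2 F) (m : ℕ), 2 ≤ m → orderOf g = 2 * m → b * g * b⁻¹ = g⁻¹ →
        ((b ^ 2 : SL2 F) : Matrix (Fin 2) (Fin 2) F) = -1 →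
        ¬ 2 ∣ (closure {g, b}).index → z = 1 := by
      intro g b m hm hg hb1 hb2 hodd
      obtain ⟨h3, h5⟩ := dicyclic_facts h2 g b m hm hg hb1 hb2
      have hzU := hcop (closure {g, b}) (by rw [hr2]; exact hodd)
      exact eq_one_of_dicyclic σ hsurj hK g b m hg hb1 h3 hz hzU
    have hcardT : ∀ (g b : SL2 F) (m : ℕ), 2 ≤ m → orderOf g = 2 * m → b * g * b⁻¹ = g⁻¹ →
        ((b ^ 2 : SL2 F) : Matrix (Fin 2) (Fin 2) F) = -1 →
        (closure {g, b}).index * (2 * (2 * m)) = (k + 1) * (k * (k + 2)) := by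
      intro g b m hm hg hb1 hb2
      obtain ⟨h3, h5⟩ := dicyclic_facts h2 g b m hm hg hb1 hb2
      apply hidx
      rw [card_closure_dicyclic g b hb1 ?_ h5, hg]
      rw [h3]
      exact pow_mem (Subgroup.mem_zpowers g) _
    rcases hmod with hmod | hmod
    · -- `q ≡ 1 mod 4`: the split torus
      obtain ⟨t, ht⟩ := exists_orderOf_sl2D (F := F)
      rw [hk, Nat.add_sub_cancel] at ht
      obtain ⟨l, rfl⟩ : ∃ l, k = 4 * l := ⟨k / 4, by omega⟩
      have hl : 0 < l := by omega
      have hW2 : ((sl2W ^ 2 : SL2 F) : Matrix (Fin 2) (Fin 2) F) = -1 := sl2W_sq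
      have hg : orderOf (sl2D t) = 2 * (2 * l) := by rw [ht]; ring
      have hc1 := hcardT (sl2D t) sl2W (2 * l) (by omega) hg (sl2W_conj_D t) hW2
      refine final (sl2D t) sl2W (2 * l) (by omega) hg (sl2W_conj_D t) hW2 ?_
      set i := (closure {sl2D t, (sl2W : SL2 F)}).index
      have e : i = (4 * l + 1) * (2 * l + 1) := by
        have h6 : i * (8 * l) = ((4 * l + 1) * (2 * l + 1)) * (8 * l) := by
          calc i * (8 * l) = i * (2 * (2 * (2 * l))) := by ring
            _ = (4 * l + 1) * (4 * l * (4 * l + 2)) := hc1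
            _ = _ := by ring
        exact Nat.eq_of_mul_eq_mul_right (by omega) h6
      rw [e]
      intro hd
      rcases (Nat.Prime.dvd_mul Nat.prime_two).mp hd with hd | hd <;> omega
    · -- `q ≡ 3 mod 4`: the non-split torus
      obtain ⟨τ, hτ, hord⟩ := exists_sl2C_order (F := F) p h2
      rw [hk] at hord
      obtain ⟨b, hb1, hb2⟩ := exists_conj_sl2C h2 τ hτ
      obtain ⟨l, rfl⟩ : ∃ l, k = 4 * l + 2 := ⟨k / 4, by omega⟩
      have hg : orderOf (sl2C τ) = 2 * (2 * l + 2) := by rw [hord]; ring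
      have hc1 := hcardT (sl2C τ) b (2 * l + 2) (by omega) hg hb1 hb2
      refine final (sl2C τ) b (2 * l + 2) (by omega) hg hb1 hb2 ?_
      set i := (closure {sl2C τ, b}).index
      have e : i = (4 * l + 3) * (2 * l + 1) := by
        have h6 : i * (8 * (l + 1)) = ((4 * l + 3) * (2 * l + 1)) * (8 * (l + 1)) := by
          calc i * (8 * (l + 1)) = i * (2 * (2 * (2 * l + 2))) := by ring
            _ = (4 * l + 2 + 1) * ((4 * l + 2) * (4 * l + 2 + 2)) := hc1
            _ = _ := by ring
        exact Nat.eq_of_mul_eq_mul_right (by omega) h6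
      rw [e]
      intro hd
      rcases (Nat.Prime.dvd_mul Nat.prime_two).mp hd with hd | hd <;> omega
  · -- odd prime not the characteristic
    by_cases hrd : r ∣ k
    · obtain ⟨t, ht⟩ := exists_orderOf_sl2D (F := F)
      rw [hk, Nat.add_sub_cancel] at ht
      apply hcyc (sl2D t)
      have h1 := hidx (zpowers (sl2D t)) k (by rw [Nat.card_zpowers, ht])
      have h2 : (zpowers (sl2D t)).index = (k + 1) * (k + 2) := by
        have : (zpowers (sl2D t)).index * k = ((k + 1) * (k + 2)) * k := by rw [h1]; ring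
        exact Nat.eq_of_mul_eq_mul_right hk0 this
      rw [h2]
      intro hd
      rcases (Nat.Prime.dvd_mul hr).mp hd with hd | hd
      · exact hrq hrp hd
      · have h3 : r ∣ 2 := (Nat.dvd_add_right hrd).mp hd
        exact hr2 ((Nat.prime_dvd_prime_iff_eq hr Nat.prime_two).mp h3)
    · obtain ⟨h, hh, -, -⟩ := exists_nonsplit_aux (F := F) p
      rw [hk] at hh
      apply hcyc h
      have h1 := hidx (zpowers h) (k + 2) (by rw [Nat.card_zpowers, hh])
      have h2 : (zpowers h).index = (k + 1) * k := by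
        have : (zpowers h).index * (k + 2) = ((k + 1) * k) * (k + 2) := by rw [h1]; ring
        exact Nat.eq_of_mul_eq_mul_right (by omega) this
      rw [h2]
      intro hd
      rcases (Nat.Prime.dvd_mul hr).mp hd with hd | hd
      · exact hrq hrp hd
      · exact hrd hd

end Cfsg.Agent.Lib.KnownSimple
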