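import Mathlib
import Cfsg.Agent.Lib.KnownSimple.Schur

/-!
# Splitting a central extension over a doubly transitive group

If `G` acts with `G_{a₀}` transitive on the other points, and the two-point stabiliser transitive
on the remaining ones, a section over the point stabiliser compatible on the two-point stabiliser
extends to a complement of the central kernel.  The complement is `U ∪ h U τ U`, where `τ` lifts a
swap and `h` is the holonomy around a triangle.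
-/

set_option autoImplicit false

namespace Cfsg.Agent.Lib.KnownSimple.SchurFlat

universe u

open Subgroup
open scoped commutatorElement

variable {Γ G Ω : Type*} [Group Γ] [Group G] [MulAction G Ω]

/-- The data for the splitting theorem. -/
structure FlatData (σ : Γ →* G) (a₀ : Ω) (U : Subgroup Γ) (τ : Γ) : Prop where
  hs : Function.Surjective σ
  hK : σ.ker ≤ Subgroup.center Γ
  hU1 : ∀ u ∈ U, σ u • a₀ = a₀
  hU2 : ∀ g : G, g • a₀ = a₀ → ∃ u ∈ U, σ u = g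
  hU3 : ∀ k ∈ σ.ker, k ∈ U → k = 1
  ht : σ τ • a₀ ≠ a₀
  ht2 : τ * τ ∈ U
  hT1 : ∀ b', b' ≠ a₀ → ∃ g : G, g • a₀ = a₀ ∧ g • (σ τ • a₀) = b'
  hT2 : ∀ b' b'', b' ≠ a₀ → b' ≠ σ τ • a₀ → b'' ≠ a₀ → b'' ≠ σ τ • a₀ →
    ∃ g : G, g • a₀ = a₀ ∧ g • (σ τ • a₀) = σ τ • a₀ ∧ g • b' = b''
  hP : ∀ δ ∈ U, σ δ • (σ τ • a₀) = σ τ • a₀ → τ⁻¹ * δ * τ ∈ U
  hv : ∃ g : G, g • a₀ = a₀ ∧ g • (σ τ • a₀) ≠ σ τ • a₀

variable {σ : Γ →* G} {a₀ : Ω} {U : Subgroup Γ} {τ : Γ}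

/-- The double coset `U τ U`. -/
def DC (U : Subgroup Γ) (τ : Γ) : Set Γ := {γ | ∃ u ∈ U, ∃ v ∈ U, γ = u * τ * v}

namespace FlatData

variable (F : FlatData σ a₀ U τ)
include F

theorem central {k : Γ} (hk : k ∈ σ.ker) (y : Γ) : k * y = y * k :=
  (Subgroup.mem_center_iff.mp (F.hK hk) y).symm

theorem smul_tt : σ τ • (σ τ • a₀) = a₀ := by
  have := F.hU1 _ F.ht2
  rwa [map_mul, mul_smul] at this

theorem inv_smul_a : (σ τ)⁻¹ • a₀ = σ τ • a₀ := by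
  rw [inv_smul_eq_iff, F.smul_tt]

theorem lift_stab {γ : Γ} (h : σ γ • a₀ = a₀) : ∃ k ∈ σ.ker, ∃ u ∈ U, γ = k * u := by
  obtain ⟨u, hu, hue⟩ := F.hU2 _ h
  refine ⟨γ * u⁻¹, ?_, u, hu, by group⟩
  rw [MonoidHom.mem_ker, map_mul, map_inv, hue, mul_inv_cancel]

theorem lift_move {γ : Γ} (h : σ γ • a₀ ≠ a₀) : ∃ k ∈ σ.ker, ∃ d ∈ DC U τ, γ = k * d := by
  obtain ⟨g, hg1, hg2⟩ := F.hT1 _ h
  obtain ⟨u, hu, rfl⟩ := F.hU2 g hg1
  have h1 : σ ((u * τ)⁻¹ * γ) • a₀ = a₀ := by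
    rw [map_mul, map_inv, map_mul, mul_smul, ← hg2, inv_smul_eq_iff, mul_smul]
  obtain ⟨v, hv, hve⟩ := F.hU2 _ h1
  refine ⟨γ * (u * τ * v)⁻¹, ?_, u * τ * v, ⟨u, hu, v, hv, rfl⟩, by group⟩
  rw [MonoidHom.mem_ker, map_mul, map_inv, map_mul, map_mul, hve]
  simp only [map_mul, map_inv]
  group

theorem dc_unique {d d' k : Γ} (hd : d ∈ DC U τ) (hd' : d' ∈ DC U τ) (hk : k ∈ σ.ker)
    (h : d = k * d') : k = 1 := by
  obtain ⟨u, hu, v, hv, rfl⟩ := hd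
  obtain ⟨u', hu', v', hv', rfl⟩ := hd'
  have hk1 : σ k = 1 := hk
  set δ := u'⁻¹ * u with hδ
  set ν := v * v'⁻¹ with hν
  have hδU : δ ∈ U := U.mul_mem (U.inv_mem hu') hu
  have hνU : ν ∈ U := U.mul_mem hv (U.inv_mem hv')
  have h1 : δ * τ * ν = k * τ := by
    have h2 : u * τ * v = u' * (k * τ) * v' := by
      rw [h]
      calc k * (u' * τ * v') = (k * u') * τ * v' := by group
        _ = (u' * k) * τ * v' := by rw [F.central hk u']
        _ = u' * (k * τ) * v' := by group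
    calc δ * τ * ν = u'⁻¹ * (u * τ * v) * v'⁻¹ := by rw [hδ, hν]; group
      _ = u'⁻¹ * (u' * (k * τ) * v') * v'⁻¹ := by rw [h2]
      _ = k * τ := by group
  have h3 : σ δ • (σ τ • a₀) = σ τ • a₀ := by
    have h4 : σ δ * σ τ = σ τ * (σ ν)⁻¹ := by
      have h5 := congrArg σ h1
      simp only [map_mul, hk1, one_mul] at h5
      exact eq_mul_inv_of_mul_eq h5
    rw [← mul_smul, h4, mul_smul, ← map_inv, F.hU1 _ (U.inv_mem hνU)]
  have h6 := F.hP δ hδU h3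
  have h7 : τ⁻¹ * δ * τ = k * ν⁻¹ := by
    have h8 : δ * τ = k * τ * ν⁻¹ := by rw [← h1]; group
    rw [mul_assoc, h8]
    rw [F.central hk τ]
    group
  rw [h7] at h6
  have h9 : k ∈ U := by
    have := U.mul_mem h6 hνU
    simpa using this
  exact F.hU3 k hk h9

theorem dc_inv {d : Γ} (hd : d ∈ DC U τ) : d⁻¹ ∈ DC U τ := by
  obtain ⟨u, hu, v, hv, rfl⟩ := hd
  refine ⟨v⁻¹, U.inv_mem hv, (τ * τ)⁻¹ * u⁻¹, U.mul_mem (U.inv_mem F.ht2) (U.inv_mem hu), ?_⟩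
  group

theorem dc_mul_left {d u : Γ} (hd : d ∈ DC U τ) (hu : u ∈ U) : u * d ∈ DC U τ := by
  obtain ⟨u', hu', v, hv, rfl⟩ := hd
  exact ⟨u * u', U.mul_mem hu hu', v, hv, by group⟩

theorem dc_mul_right {d u : Γ} (hd : d ∈ DC U τ) (hu : u ∈ U) : d * u ∈ DC U τ := by
  obtain ⟨u', hu', v, hv, rfl⟩ := hd
  exact ⟨u', hu', v * u, U.mul_mem hv hu, by group⟩

theorem dc_moves {d : Γ} (hd : d ∈ DC U τ) : σ d • a₀ ≠ a₀ := by
  obtain ⟨u, hu, v, hv, rfl⟩ := hd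
  simp only [map_mul, mul_smul]
  rw [F.hU1 v hv]
  intro h
  apply F.ht
  have h1 := congrArg (fun q => (σ u)⁻¹ • q) h
  simp only [inv_smul_smul] at h1
  rw [h1, inv_smul_eq_iff, F.hU1 u hu]

theorem tvt_of_fix {v : Γ} (hv : v ∈ U) (h : σ v • (σ τ • a₀) = σ τ • a₀) : τ * v * τ ∈ U := by
  have := U.mul_mem F.ht2 (F.hP v hv h)
  convert this using 1
  group

theorem tvtinv_of_fix {v : Γ} (hv : v ∈ U) (h : σ v • (σ τ • a₀) = σ τ • a₀) : τ * v * τ⁻¹ ∈ U := by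
  have := U.mul_mem (F.tvt_of_fix hv h) (U.inv_mem F.ht2)
  convert this using 1
  group

theorem tvt_moves {v : Γ} (h : σ v • (σ τ • a₀) ≠ σ τ • a₀) : σ (τ * v * τ) • a₀ ≠ a₀ := by
  simp only [map_mul, mul_smul]
  intro h1
  apply h
  have h2 := congrArg (fun q => (σ τ)⁻¹ • q) h1
  simp only [inv_smul_smul] at h2
  rw [h2, F.inv_smul_a]

/-- The holonomy relation. -/
def Hol (U : Subgroup Γ) (τ v k : Γ) : Prop := ∃ d ∈ DC U τ, τ * v * τ = k * d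

theorem hol_const {v v' k k' : Γ} (hv : v ∈ U) (hv' : v' ∈ U)
    (hm : σ v • (σ τ • a₀) ≠ σ τ • a₀) (hm' : σ v' • (σ τ • a₀) ≠ σ τ • a₀)
    (hk : k ∈ σ.ker) (hk' : k' ∈ σ.ker) (h : Hol U τ v k) (h' : Hol U τ v' k') : k = k' := by
  obtain ⟨d, hd, hde⟩ := h
  obtain ⟨d', hd', hde'⟩ := h'
  have hne : ∀ {w : Γ}, w ∈ U → σ w • (σ τ • a₀) ≠ a₀ := by
    intro w hw h0
    apply F.ht
    have h1 := F.hU1 w hw
    have h2 : σ w • (σ τ • a₀) = σ w • a₀ := h0.trans h1.symm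
    exact MulAction.injective (σ w) h2
  obtain ⟨g, hg1, hg2, hg3⟩ := F.hT2 _ _ (hne hv) hm (hne hv') hm'
  obtain ⟨n, hn, rfl⟩ := F.hU2 g hg1
  set v'' := v'⁻¹ * (n * v) with hv''
  have hv''U : v'' ∈ U := U.mul_mem (U.inv_mem hv') (U.mul_mem hn hv)
  have hv''f : σ v'' • (σ τ • a₀) = σ τ • a₀ := by
    rw [hv'', map_mul, map_inv, map_mul, mul_smul, mul_smul, hg3, inv_smul_smul]
  have h1 : τ * (n * v) * τ = k * ((τ * n * τ⁻¹) * d) := by
    have h2 : τ * (n * v) * τ = (τ * n * τ⁻¹) * (τ * v * τ) := by group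
    rw [h2, hde, ← mul_assoc, ← F.central hk]
    group
  have h3 : τ * (n * v) * τ = k' * (d' * (τ⁻¹ * v'' * τ)) := by
    have h4 : n * v = v' * v'' := by rw [hv'']; group
    rw [h4]
    have h5 : τ * (v' * v'') * τ = (τ * v' * τ) * (τ⁻¹ * v'' * τ) := by group
    rw [h5, hde']
    group
  have hD1 : (τ * n * τ⁻¹) * d ∈ DC U τ := F.dc_mul_left hd (F.tvtinv_of_fix hn hg2)
  have hD2 : d' * (τ⁻¹ * v'' * τ) ∈ DC U τ := F.dc_mul_right hd' (F.hP v'' hv''U hv''f)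
  have h6 : (τ * n * τ⁻¹) * d = (k⁻¹ * k') * (d' * (τ⁻¹ * v'' * τ)) := by
    have h7 := h1.symm.trans h3
    rw [mul_assoc k⁻¹, ← h7]
    group
  have h8 := F.dc_unique hD1 hD2 (σ.ker.mul_mem (σ.ker.inv_mem hk) hk') h6
  have h9 : k' = k := by
    have := congrArg (fun q => k * q) h8
    simpa using this
  exact h9.symm

theorem hol_inv {v k : Γ} (hk : k ∈ σ.ker) (h : Hol U τ v k) : Hol U τ v⁻¹ k⁻¹ := by
  obtain ⟨d, hd, hde⟩ := h
  set μ := τ * τ with hμ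
  have hμU : μ ∈ U := F.ht2
  refine ⟨μ * d⁻¹ * μ, F.dc_mul_right (F.dc_mul_left (F.dc_inv hd) hμU) hμU, ?_⟩
  have h1 : (τ * v * τ)⁻¹ = (k * d)⁻¹ := by rw [hde]
  have h2 : τ * v⁻¹ * τ = μ * (τ * v * τ)⁻¹ * μ := by rw [hμ]; group
  rw [h2, h1, mul_inv_rev]
  have h3 : d⁻¹ * k⁻¹ = k⁻¹ * d⁻¹ := (F.central (σ.ker.inv_mem hk) d⁻¹).symm
  rw [h3]
  have h4 : μ * (k⁻¹ * d⁻¹) * μ = (μ * k⁻¹) * d⁻¹ * μ := by group
  rw [h4, ← F.central (σ.ker.inv_mem hk) μ]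
  group

/-- Existence of a holonomy of order at most two. -/
theorem exists_hol : ∃ h ∈ σ.ker, h * h = 1 ∧
    ∀ v ∈ U, σ v • (σ τ • a₀) ≠ σ τ • a₀ → Hol U τ v h := by
  obtain ⟨g, hg1, hg2⟩ := F.hv
  obtain ⟨v₀, hv₀, rfl⟩ := F.hU2 g hg1
  obtain ⟨h, hh, d, hd, hde⟩ := F.lift_move (F.tvt_moves hg2)
  have hH : Hol U τ v₀ h := ⟨d, hd, hde⟩
  refine ⟨h, hh, ?_, ?_⟩
  · have hm' : σ v₀⁻¹ • (σ τ • a₀) ≠ σ τ • a₀ := by
      intro h1
      apply hg2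
      rw [map_inv, inv_smul_eq_iff] at h1
      exact h1.symm
    have h2 := F.hol_const hv₀ (U.inv_mem hv₀) hg2 hm' hh (σ.ker.inv_mem hh) hH (F.hol_inv hh hH)
    have h3 : h * h = h⁻¹ * h := by
      rw [← h2]
    rw [h3]
    group
  · intro v hv hm
    obtain ⟨k, hk, d', hd', hde'⟩ := F.lift_move (F.tvt_moves hm)
    have := F.hol_const hv₀ hv hg2 hm hh hk hH ⟨d', hd', hde'⟩
    rw [this]
    exact ⟨d', hd', hde'⟩

/-- The complement. -/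
theorem exists_complement : ∃ S : Subgroup Γ, (∀ k ∈ σ.ker, k ∈ S → k = 1) ∧
    ∀ γ : Γ, ∃ k ∈ σ.ker, ∃ s ∈ S, γ = k * s := by
  obtain ⟨h, hh, hh2, hhol⟩ := F.exists_hol
  have hinv : h⁻¹ = h := by
    rw [inv_eq_iff_mul_eq_one]
    exact hh2
  have hc := fun y => F.central hh y
  let S : Subgroup Γ :=
    { carrier := {γ | γ ∈ U ∨ ∃ d ∈ DC U τ, γ = h * d}
      one_mem' := Or.inl U.one_mem
      inv_mem' := by
        rintro x (hx | ⟨d, hd, rfl⟩)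
        · exact Or.inl (U.inv_mem hx)
        · refine Or.inr ⟨d⁻¹, F.dc_inv hd, ?_⟩
          rw [mul_inv_rev, hinv, ← hc]
      mul_mem' := by
        rintro x y (hx | ⟨d, hd, rfl⟩) (hy | ⟨d', hd', rfl⟩)
        · exact Or.inl (U.mul_mem hx hy)
        · refine Or.inr ⟨x * d', F.dc_mul_left hd' hx, ?_⟩
          rw [← mul_assoc, ← hc, mul_assoc]
        · refine Or.inr ⟨d * y, F.dc_mul_right hd hy, by group⟩
        · obtain ⟨u, hu, v, hv, rfl⟩ := hd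
          obtain ⟨u', hu', v', hv', rfl⟩ := hd'
          have h1 : h * (u * τ * v) * (h * (u' * τ * v')) =
              (h * h) * (u * (τ * (v * u') * τ) * v') := by
            have h2 : (u * τ * v) * h = h * (u * τ * v) := (hc _).symm
            calc h * (u * τ * v) * (h * (u' * τ * v'))
                = h * ((u * τ * v) * h) * (u' * τ * v') := by group
              _ = h * (h * (u * τ * v)) * (u' * τ * v') := by rw [h2]
              _ = _ := by group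
          rw [h1, hh2, one_mul]
          by_cases hf : σ (v * u') • (σ τ • a₀) = σ τ • a₀
          · exact Or.inl (U.mul_mem (U.mul_mem hu (F.tvt_of_fix (U.mul_mem hv hu') hf)) hv')
          · obtain ⟨d, hd, hde⟩ := hhol _ (U.mul_mem hv hu') hf
            refine Or.inr ⟨u * d * v', F.dc_mul_right (F.dc_mul_left hd hu) hv', ?_⟩
            rw [hde]
            have h2 : u * (h * d) = h * (u * d) := by
              rw [← mul_assoc, ← hc, mul_assoc]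
            rw [h2]
            group }
  refine ⟨S, ?_, ?_⟩
  · rintro k hk (hU | ⟨d, hd, rfl⟩)
    · exact F.hU3 k hk hU
    · exfalso
      apply F.dc_moves hd
      have h1 : σ (h * d) = 1 := hk
      have hh1 : σ h = 1 := hh
      rw [map_mul, hh1, one_mul] at h1
      rw [h1, one_smul]
  · intro γ
    by_cases hf : σ γ • a₀ = a₀
    · obtain ⟨k, hk, u, hu, rfl⟩ := F.lift_stab hf
      exact ⟨k, hk, u, Or.inl hu, rfl⟩
    · obtain ⟨k, hk, d, hd, rfl⟩ := F.lift_move hf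
      refine ⟨k * h⁻¹, σ.ker.mul_mem hk (σ.ker.inv_mem hh), h * d, Or.inr ⟨d, hd, rfl⟩, by group⟩

end FlatData

/-- A complement of a central kernel contains the commutator subgroup. -/
theorem commutator_le_of_complement {σ : Γ →* G} (hK : σ.ker ≤ Subgroup.center Γ) {S : Subgroup Γ}
    (h : ∀ γ : Γ, ∃ k ∈ σ.ker, ∃ s ∈ S, γ = k * s) : commutator Γ ≤ S := by
  rw [commutator_def, Subgroup.commutator_le]
  intro x _ y _
  obtain ⟨k, hk, s, hs, rfl⟩ := h x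
  obtain ⟨l, hl, t, ht, rfl⟩ := h y
  have e1 : ∀ y : Γ, k * y = y * k := fun y => (Subgroup.mem_center_iff.mp (hK hk) y).symm
  have e2 : ∀ y : Γ, l * y = y * l := fun y => (Subgroup.mem_center_iff.mp (hK hl) y).symm
  have h3 : k * s * (l * t) * (k * s)⁻¹ * (l * t)⁻¹ = s * t * s⁻¹ * t⁻¹ := by
    calc k * s * (l * t) * (k * s)⁻¹ * (l * t)⁻¹
        = k * (s * (l * t) * s⁻¹) * k⁻¹ * (t⁻¹ * l⁻¹) := by group
      _ = (s * (l * t) * s⁻¹) * (t⁻¹ * l⁻¹) := by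
          rw [e1 (s * (l * t) * s⁻¹)]; group
      _ = s * (l * t) * s⁻¹ * t⁻¹ * l⁻¹ := by group
      _ = s * t * s⁻¹ * t⁻¹ := by
          rw [e2 t, show s * (t * l) * s⁻¹ * t⁻¹ * l⁻¹ = s * t * (l * (s⁻¹ * t⁻¹)) * l⁻¹ by group,
            e2 (s⁻¹ * t⁻¹)]
          group
  rw [commutatorElement_def, h3]
  exact S.mul_mem (S.mul_mem (S.mul_mem hs ht) (S.inv_mem hs)) (S.inv_mem ht)

/-- A central kernel inside the commutator subgroup and a complement: the kernel is trivial. -/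
theorem ker_eq_bot_of_complement {σ : Γ →* G} (hK : σ.ker ≤ Subgroup.center Γ) (hK' : σ.ker ≤ commutator Γ)
    {S : Subgroup Γ} (h1 : ∀ k ∈ σ.ker, k ∈ S → k = 1) (h : ∀ γ : Γ, ∃ k ∈ σ.ker, ∃ s ∈ S, γ = k * s) :
    σ.ker = ⊥ := by
  rw [Subgroup.eq_bot_iff_forall]
  intro k hk
  exact h1 k hk (commutator_le_of_complement hK h (hK' hk))


/-- A subgroup of `G` whose preimage splits: from the triviality of the multiplier of a perfect group. -/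
theorem exists_section {Γ G : Type u} [Group Γ] [Group G] [Finite Γ] (σ : Γ →* G)
    (hs : Function.Surjective σ) (hK : σ.ker ≤ Subgroup.center Γ) (H : Subgroup G)
    (hperf : commutator H = ⊤)
    (hmul : ∀ (Λ : Type u) [Group Λ] [Finite Λ] (ρ : Λ →* H), Cfsg.IsStemExtension ρ → ρ.ker = ⊥) :
    ∃ U : Subgroup Γ, (∀ u ∈ U, σ u ∈ H) ∧ (∀ g ∈ H, ∃ u ∈ U, σ u = g) ∧ (∀ k ∈ σ.ker, k ∈ U → k = 1) := by
  set Ht := H.comap σ with hHt
  set U := ⁅Ht, Ht⁆ with hU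
  have hUle : U ≤ Ht := Subgroup.commutator_le_self _
  have h1 : ∀ u ∈ U, σ u ∈ H := fun u hu => hUle hu
  have hHc : ⁅H, H⁆ = H := by
    have h2 := Subgroup.map_subtype_commutator H
    rw [hperf] at h2
    rw [← h2]
    ext x
    simp
  have h2 : ∀ g ∈ H, ∃ u ∈ U, σ u = g := by
    have h3 : ⁅H, H⁆ ≤ U.map σ := by
      rw [Subgroup.commutator_le]
      intro x hx y hy
      obtain ⟨x', rfl⟩ := hs x
      obtain ⟨y', rfl⟩ := hs y
      refine ⟨⁅x', y'⁆, Subgroup.commutator_mem_commutator hx hy, ?_⟩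
      simp [commutatorElement_def]
    intro g hg
    rw [← hHc] at hg
    obtain ⟨u, hu, hue⟩ := h3 hg
    exact ⟨u, hu, hue⟩
  have h4 : ∀ x ∈ Ht, ∃ k ∈ σ.ker, ∃ u ∈ U, x = k * u := by
    intro x hx
    obtain ⟨u, hu, hue⟩ := h2 _ hx
    refine ⟨x * u⁻¹, ?_, u, hu, by group⟩
    rw [MonoidHom.mem_ker, map_mul, map_inv, hue, mul_inv_cancel]
  have h5 : U ≤ ⁅U, U⁆ := by
    have hU' : ⁅Ht, Ht⁆ ≤ ⁅U, U⁆ := ?_
    · exact hU'
    rw [Subgroup.commutator_le]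
    intro x hx y hy
    obtain ⟨k, hk, u, hu, rfl⟩ := h4 x hx
    obtain ⟨l, hl, v, hv, rfl⟩ := h4 y hy
    have e1 : ∀ y : Γ, k * y = y * k := fun y => (Subgroup.mem_center_iff.mp (hK hk) y).symm
    have e2 : ∀ y : Γ, l * y = y * l := fun y => (Subgroup.mem_center_iff.mp (hK hl) y).symm
    have h6 : ⁅k * u, l * v⁆ = ⁅u, v⁆ := by
      simp only [commutatorElement_def]
      calc k * u * (l * v) * (k * u)⁻¹ * (l * v)⁻¹
          = k * (u * (l * v) * u⁻¹) * k⁻¹ * (v⁻¹ * l⁻¹) := by group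
        _ = (u * (l * v) * u⁻¹) * (v⁻¹ * l⁻¹) := by
            rw [e1 (u * (l * v) * u⁻¹)]; group
        _ = u * (l * v) * u⁻¹ * v⁻¹ * l⁻¹ := by group
        _ = u * v * u⁻¹ * v⁻¹ := by
            rw [e2 v, show u * (v * l) * u⁻¹ * v⁻¹ * l⁻¹ = u * v * (l * (u⁻¹ * v⁻¹)) * l⁻¹ by group,
              e2 (u⁻¹ * v⁻¹)]
            group
    rw [h6]
    exact Subgroup.commutator_mem_commutator hu hv
  refine ⟨U, h1, h2, ?_⟩
  -- the stem extension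
  let ρ : U →* H := (σ.comp U.subtype).codRestrict H (fun u => h1 u u.2)
  have hρ : Cfsg.IsStemExtension ρ := by
    refine ⟨?_, ?_, ?_⟩
    · rintro ⟨g, hg⟩
      obtain ⟨u, hu, hue⟩ := h2 g hg
      exact ⟨⟨u, hu⟩, Subtype.ext hue⟩
    · intro k hk
      rw [Subgroup.mem_center_iff]
      intro y
      apply Subtype.ext
      have hk' : (k : Γ) ∈ σ.ker := by
        have := congrArg Subtype.val (MonoidHom.mem_ker.mp hk)
        exact this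
      exact Subgroup.mem_center_iff.mp (hK hk') y
    · intro k _
      have h6 : (k : Γ) ∈ ⁅U, U⁆ := h5 k.2
      rw [← Subgroup.map_subtype_commutator] at h6
      obtain ⟨y, hy, hye⟩ := h6
      have : y = k := Subtype.ext hye
      rw [← this]
      exact hy
  have hker := hmul U ρ hρ
  intro k hk hkU
  have h7 : (⟨k, hkU⟩ : U) ∈ ρ.ker := by
    rw [MonoidHom.mem_ker]
    apply Subtype.ext
    exact hk
  rw [hker, Subgroup.mem_bot] at h7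
  exact congrArg Subtype.val h7

/-- Lift of an involution fixing a point. -/
theorem lift_involution {Γ G Ω : Type*} [Group Γ] [Group G] [MulAction G Ω] {σ : Γ →* G} {a₀ : Ω} {U : Subgroup Γ}
    (hs : Function.Surjective σ)
    (hU2 : ∀ g : G, g • a₀ = a₀ → ∃ u ∈ U, σ u = g) (hU3 : ∀ k ∈ σ.ker, k ∈ U → k = 1)
    {t ρ : G} {c : Ω} (ht2 : t * t = 1) (htc : t • c = c) (hρ : ρ • a₀ = c) :
    ∃ τ : Γ, σ τ = t ∧ τ * τ = 1 := by
  obtain ⟨r, rfl⟩ := hs ρ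
  have h1 : ((σ r)⁻¹ * t * σ r) • a₀ = a₀ := by
    rw [mul_smul, mul_smul, hρ, htc, ← hρ, inv_smul_smul]
  obtain ⟨u, hu, hue⟩ := hU2 _ h1
  refine ⟨r * u * r⁻¹, ?_, ?_⟩
  · simp only [map_mul, map_inv, hue]
    group
  · have h2 : u * u = 1 := by
      apply hU3 _ _ (U.mul_mem hu hu)
      rw [MonoidHom.mem_ker, map_mul, hue]
      calc (σ r)⁻¹ * t * σ r * ((σ r)⁻¹ * t * σ r) = (σ r)⁻¹ * (t * t) * σ r := by group
        _ = 1 := by rw [ht2]; group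
    calc r * u * r⁻¹ * (r * u * r⁻¹) = r * (u * u) * r⁻¹ := by group
      _ = 1 := by rw [h2]; group

/-- The compatibility on a perfect two point stabiliser. -/
theorem compat_of_perfect {Γ G Ω : Type*} [Group Γ] [Group G] [MulAction G Ω] {σ : Γ →* G} {a₀ : Ω} {U : Subgroup Γ}
    {τ : Γ} (hK : σ.ker ≤ Subgroup.center Γ) (hU1 : ∀ u ∈ U, σ u • a₀ = a₀)
    (hU2 : ∀ g : G, g • a₀ = a₀ → ∃ u ∈ U, σ u = g) (hU3 : ∀ k ∈ σ.ker, k ∈ U → k = 1)
    (P : Subgroup G) (hP1 : ∀ g, g ∈ P ↔ g • a₀ = a₀ ∧ g • (σ τ • a₀) = σ τ • a₀)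
    (hP2 : P ≤ ⁅P, P⁆) :
    ∀ δ ∈ U, σ δ • (σ τ • a₀) = σ τ • a₀ → τ⁻¹ * δ * τ ∈ U := by
  have hmove : ∀ δ ∈ U, σ δ • (σ τ • a₀) = σ τ • a₀ → ∃ k ∈ σ.ker, ∃ u ∈ U, τ⁻¹ * δ * τ = k * u := by
    intro δ hδ hf
    have h1 : σ (τ⁻¹ * δ * τ) • a₀ = a₀ := by
      simp only [map_mul, map_inv, mul_smul]
      rw [hf, inv_smul_smul]
    obtain ⟨u, hu, hue⟩ := hU2 _ h1
    refine ⟨τ⁻¹ * δ * τ * u⁻¹, ?_, u, hu, by group⟩
    rw [MonoidHom.mem_ker, map_mul, map_inv, hue, mul_inv_cancel]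
  -- the good subgroup
  let C : Subgroup Γ :=
    { carrier := {δ | δ ∈ U ∧ σ δ • (σ τ • a₀) = σ τ • a₀ ∧ τ⁻¹ * δ * τ ∈ U}
      one_mem' := ⟨U.one_mem, by simp, by simp [U.one_mem]⟩
      mul_mem' := by
        rintro x y ⟨h1, h2, h3⟩ ⟨h4, h5, h6⟩
        refine ⟨U.mul_mem h1 h4, ?_, ?_⟩
        · rw [map_mul, mul_smul, h5, h2]
        · have := U.mul_mem h3 h6
          convert this using 1
          group
      inv_mem' := by
        rintro x ⟨h1, h2, h3⟩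
        refine ⟨U.inv_mem h1, ?_, ?_⟩
        · rw [map_inv, inv_smul_eq_iff, h2]
        · have := U.inv_mem h3
          convert this using 1
          group }
  have h1 : P ≤ C.map σ := by
    refine hP2.trans ?_
    rw [Subgroup.commutator_le]
    intro x hx y hy
    have hx' := (hP1 x).mp hx
    have hy' := (hP1 y).mp hy
    obtain ⟨u, hu, rfl⟩ := hU2 x hx'.1
    obtain ⟨v, hv, rfl⟩ := hU2 y hy'.1
    refine ⟨u * v * u⁻¹ * v⁻¹, ⟨U.mul_mem (U.mul_mem (U.mul_mem hu hv) (U.inv_mem hu)) (U.inv_mem hv), ?_, ?_⟩, ?_⟩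
    · simp only [map_mul, map_inv, mul_smul]
      have h2 : (σ v)⁻¹ • (σ τ • a₀) = σ τ • a₀ := by rw [inv_smul_eq_iff, hy'.2]
      have h3 : (σ u)⁻¹ • (σ τ • a₀) = σ τ • a₀ := by rw [inv_smul_eq_iff, hx'.2]
      rw [h2, h3, hy'.2, hx'.2]
    · obtain ⟨k, hk, u', hu', hue⟩ := hmove u hu hx'.2
      obtain ⟨l, hl, v', hv', hve⟩ := hmove v hv hy'.2
      have e1 : ∀ y : Γ, k * y = y * k := fun y => (Subgroup.mem_center_iff.mp (hK hk) y).symm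
      have e2 : ∀ y : Γ, l * y = y * l := fun y => (Subgroup.mem_center_iff.mp (hK hl) y).symm
      have h4 : τ⁻¹ * (u * v * u⁻¹ * v⁻¹) * τ =
          (τ⁻¹ * u * τ) * (τ⁻¹ * v * τ) * (τ⁻¹ * u * τ)⁻¹ * (τ⁻¹ * v * τ)⁻¹ := by group
      rw [h4, hue, hve]
      have h5 : k * u' * (l * v') * (k * u')⁻¹ * (l * v')⁻¹ = u' * v' * u'⁻¹ * v'⁻¹ := by
        calc k * u' * (l * v') * (k * u')⁻¹ * (l * v')⁻¹
            = k * (u' * (l * v') * u'⁻¹) * k⁻¹ * (v'⁻¹ * l⁻¹) := by group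
          _ = (u' * (l * v') * u'⁻¹) * (v'⁻¹ * l⁻¹) := by
              rw [e1 (u' * (l * v') * u'⁻¹)]; group
          _ = u' * (l * v') * u'⁻¹ * v'⁻¹ * l⁻¹ := by group
          _ = u' * v' * u'⁻¹ * v'⁻¹ := by
              rw [e2 v', show u' * (v' * l) * u'⁻¹ * v'⁻¹ * l⁻¹ = u' * v' * (l * (u'⁻¹ * v'⁻¹)) * l⁻¹ by group,
                e2 (u'⁻¹ * v'⁻¹)]
              group
      rw [h5]
      exact U.mul_mem (U.mul_mem (U.mul_mem hu' hv') (U.inv_mem hu')) (U.inv_mem hv')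
    · simp [commutatorElement_def]
  intro δ hδ hf
  have h2 : σ δ ∈ P := (hP1 _).mpr ⟨hU1 δ hδ, hf⟩
  obtain ⟨δ', hδ', he⟩ := h1 h2
  have h3 : δ * δ'⁻¹ = 1 := by
    apply hU3 _ _ (U.mul_mem hδ (U.inv_mem hδ'.1))
    rw [MonoidHom.mem_ker, map_mul, map_inv, he, mul_inv_cancel]
  have h4 : δ = δ' := mul_inv_eq_one.mp h3
  rw [h4]
  exact hδ'.2.2

/-- **Splitting theorem** in usable form. -/
theorem ker_eq_bot_of_three_trans {Γ G Ω : Type u} [Group Γ] [Group G] [MulAction G Ω] [Finite Γ] {σ : Γ →* G}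
    (hσ : Cfsg.IsStemExtension σ) (a₀ b c : Ω) (hab : b ≠ a₀) (hac : c ≠ a₀) (hbc : c ≠ b)
    (h3 : ∀ x y z x' y' z' : Ω, x ≠ y → x ≠ z → y ≠ z → x' ≠ y' → x' ≠ z' → y' ≠ z' →
      ∃ g : G, g • x = x' ∧ g • y = y' ∧ g • z = z')
    (t : G) (ht2 : t * t = 1) (hta : t • a₀ = b) (htc : t • c = c)
    (H P : Subgroup G) (hH : ∀ g, g ∈ H ↔ g • a₀ = a₀)
    (hP1 : ∀ g, g ∈ P ↔ g • a₀ = a₀ ∧ g • b = b) (hP2 : P ≤ ⁅P, P⁆)
    (hperf : commutator H = ⊤)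
    (hmul : ∀ (Λ : Type u) [Group Λ] [Finite Λ] (ρ : Λ →* H), Cfsg.IsStemExtension ρ → ρ.ker = ⊥) :
    σ.ker = ⊥ := by
  obtain ⟨hs, hK, hK'⟩ := hσ
  obtain ⟨U, hU1, hU2, hU3⟩ := exists_section σ hs hK H hperf hmul
  have hU1' : ∀ u ∈ U, σ u • a₀ = a₀ := fun u hu => (hH _).mp (hU1 u hu)
  have hU2' : ∀ g : G, g • a₀ = a₀ → ∃ u ∈ U, σ u = g := fun g hg => hU2 g ((hH g).mpr hg)
  obtain ⟨ρ, hρ, -, -⟩ := h3 a₀ b c c a₀ b hab.symm hac.symm hbc.symm hac hbc hab.symm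
  obtain ⟨τ, hτ, hττ⟩ := lift_involution hs hU2' hU3 ht2 htc hρ
  have hτa : σ τ • a₀ = b := by rw [hτ, hta]
  have hF : FlatData σ a₀ U τ := by
    refine ⟨hs, hK, hU1', hU2', hU3, by rw [hτa]; exact hab, by rw [hττ]; exact U.one_mem, ?_, ?_, ?_, ?_⟩
    · intro b' hb'
      rw [hτa]
      by_cases hbb : b' = b
      · subst hbb
        exact ⟨1, by simp, by simp⟩
      · obtain ⟨g, h1, h2, h3'⟩ := h3 a₀ b c a₀ b' b hab.symm hac.symm hbc.symm hb'.symm hab.symm hbb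
        exact ⟨g, h1, h2⟩
    · intro b' b'' h1 h2 h4 h5
      rw [hτa] at h2 h5 ⊢
      obtain ⟨g, h6, h7, h8⟩ := h3 a₀ b b' a₀ b b'' hab.symm h1.symm h2.symm hab.symm h4.symm h5.symm
      exact ⟨g, h6, h7, h8⟩
    · apply compat_of_perfect hK hU1' hU2' hU3 P _ hP2
      intro g
      rw [hτa]
      exact hP1 g
    · rw [hτa]
      obtain ⟨g, h1, h2, h4⟩ := h3 a₀ b c a₀ c b hab.symm hac.symm hbc.symm hac.symm hab.symm hbc
      exact ⟨g, h1, by rw [h2]; exact hbc⟩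
  obtain ⟨S, hS1, hS2⟩ := hF.exists_complement
  exact ker_eq_bot_of_complement hK hK' hS1 hS2


/-- **Splitting theorem, index two version**: when the two point stabiliser has a perfect-enough
commutator subgroup of index at most two, the kernel has order at most two. -/
theorem ker_le_two_of_three_trans {Γ G Ω : Type u} [Group Γ] [Group G] [MulAction G Ω] [Finite Γ] {σ : Γ →* G}
    (hσ : Cfsg.IsStemExtension σ) (a₀ b c : Ω) (hab : b ≠ a₀) (hac : c ≠ a₀) (hbc : c ≠ b)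
    (h3 : ∀ x y z x' y' z' : Ω, x ≠ y → x ≠ z → y ≠ z → x' ≠ y' → x' ≠ z' → y' ≠ z' →
      ∃ g : G, g • x = x' ∧ g • y = y' ∧ g • z = z')
    (t : G) (ht2 : t * t = 1) (hta : t • a₀ = b) (htc : t • c = c)
    (H P : Subgroup G) (hH : ∀ g, g ∈ H ↔ g • a₀ = a₀)
    (hP1 : ∀ g, g ∈ P ↔ g • a₀ = a₀ ∧ g • b = b) (d : G) (hd : d ∈ P)
    (hP2 : ∀ g ∈ P, g ∈ ⁅P, P⁆ ∨ g * d⁻¹ ∈ ⁅P, P⁆)
    (hperf : commutator H = ⊤)
    (hmul : ∀ (Λ : Type u) [Group Λ] [Finite Λ] (ρ : Λ →* H), Cfsg.IsStemExtension ρ → ρ.ker = ⊥) :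
    ∃ z ∈ σ.ker, z * z = 1 ∧ ∀ k ∈ σ.ker, k = 1 ∨ k = z := by
  obtain ⟨hs, hK, hK'⟩ := hσ
  obtain ⟨U, hU1, hU2, hU3⟩ := exists_section σ hs hK H hperf hmul
  have hU1' : ∀ u ∈ U, σ u • a₀ = a₀ := fun u hu => (hH _).mp (hU1 u hu)
  have hU2' : ∀ g : G, g • a₀ = a₀ → ∃ u ∈ U, σ u = g := fun g hg => hU2 g ((hH g).mpr hg)
  obtain ⟨ρ, hρ, -, -⟩ := h3 a₀ b c c a₀ b hab.symm hac.symm hbc.symm hac hbc hab.symm
  obtain ⟨τ, hτ, hττ⟩ := lift_involution hs hU2' hU3 ht2 htc hρ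
  have hτa : σ τ • a₀ = b := by rw [hτ, hta]
  have hcen : ∀ k ∈ σ.ker, ∀ t : Γ, t * k = k * t := fun k hk t =>
    Subgroup.mem_center_iff.mp (hK hk) t
  have hmove : ∀ δ ∈ U, σ δ • b = b → ∃ k ∈ σ.ker, ∃ u ∈ U, τ⁻¹ * δ * τ = k * u := by
    intro δ hδ hf
    have h1 : σ (τ⁻¹ * δ * τ) • a₀ = a₀ := by
      simp only [map_mul, map_inv, mul_smul]
      rw [hτa, hf, ← hτa, inv_smul_smul]
    obtain ⟨u, hu, hue⟩ := hU2' _ h1
    refine ⟨τ⁻¹ * δ * τ * u⁻¹, ?_, u, hu, by group⟩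
    rw [MonoidHom.mem_ker, map_mul, map_inv, hue, mul_inv_cancel]
  -- compatibility on the commutator subgroup
  let C : Subgroup Γ :=
    { carrier := {δ | δ ∈ U ∧ σ δ • b = b ∧ τ⁻¹ * δ * τ ∈ U}
      one_mem' := ⟨U.one_mem, by simp, by simp [U.one_mem]⟩
      mul_mem' := by
        rintro x y ⟨h1, h2, h3⟩ ⟨h4, h5, h6⟩
        refine ⟨U.mul_mem h1 h4, ?_, ?_⟩
        · rw [map_mul, mul_smul, h5, h2]
        · have := U.mul_mem h3 h6
          convert this using 1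
          group
      inv_mem' := by
        rintro x ⟨h1, h2, h3⟩
        refine ⟨U.inv_mem h1, ?_, ?_⟩
        · rw [map_inv, inv_smul_eq_iff, h2]
        · have := U.inv_mem h3
          convert this using 1
          group }
  have hCm : ⁅P, P⁆ ≤ C.map σ := by
    rw [Subgroup.commutator_le]
    intro x hx y hy
    have hx' := (hP1 x).mp hx
    have hy' := (hP1 y).mp hy
    obtain ⟨u, hu, rfl⟩ := hU2' x hx'.1
    obtain ⟨v, hv, rfl⟩ := hU2' y hy'.1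
    refine ⟨u * v * u⁻¹ * v⁻¹, ⟨U.mul_mem (U.mul_mem (U.mul_mem hu hv) (U.inv_mem hu)) (U.inv_mem hv), ?_, ?_⟩, ?_⟩
    · simp only [map_mul, map_inv, mul_smul]
      have h2 : (σ v)⁻¹ • b = b := by rw [inv_smul_eq_iff, hy'.2]
      have h3' : (σ u)⁻¹ • b = b := by rw [inv_smul_eq_iff, hx'.2]
      rw [h2, h3', hy'.2, hx'.2]
    · obtain ⟨k, hk, u', hu', hue⟩ := hmove u hu hx'.2
      obtain ⟨l, hl, v', hv', hve⟩ := hmove v hv hy'.2
      have e1 : ∀ y : Γ, k * y = y * k := fun y => (hcen k hk y).symm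
      have e2 : ∀ y : Γ, l * y = y * l := fun y => (hcen l hl y).symm
      have h4 : τ⁻¹ * (u * v * u⁻¹ * v⁻¹) * τ =
          (τ⁻¹ * u * τ) * (τ⁻¹ * v * τ) * (τ⁻¹ * u * τ)⁻¹ * (τ⁻¹ * v * τ)⁻¹ := by group
      rw [h4, hue, hve]
      have h5 : k * u' * (l * v') * (k * u')⁻¹ * (l * v')⁻¹ = u' * v' * u'⁻¹ * v'⁻¹ := by
        calc k * u' * (l * v') * (k * u')⁻¹ * (l * v')⁻¹
            = k * (u' * (l * v') * u'⁻¹) * k⁻¹ * (v'⁻¹ * l⁻¹) := by group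
          _ = (u' * (l * v') * u'⁻¹) * (v'⁻¹ * l⁻¹) := by
              rw [e1 (u' * (l * v') * u'⁻¹)]; group
          _ = u' * (l * v') * u'⁻¹ * v'⁻¹ * l⁻¹ := by group
          _ = u' * v' * u'⁻¹ * v'⁻¹ := by
              rw [e2 v', show u' * (v' * l) * u'⁻¹ * v'⁻¹ * l⁻¹ = u' * v' * (l * (u'⁻¹ * v'⁻¹)) * l⁻¹ by group,
                e2 (u'⁻¹ * v'⁻¹)]
              group
      rw [h5]
      exact U.mul_mem (U.mul_mem (U.mul_mem hu' hv') (U.inv_mem hu')) (U.inv_mem hv')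
    · simp [commutatorElement_def]
  have hCU : ∀ δ ∈ U, σ δ ∈ ⁅P, P⁆ → τ⁻¹ * δ * τ ∈ U := by
    intro δ hδ hf
    obtain ⟨δ', hδ', he⟩ := hCm hf
    have h3 : δ * δ'⁻¹ = 1 := by
      apply hU3 _ _ (U.mul_mem hδ (U.inv_mem hδ'.1))
      rw [MonoidHom.mem_ker, map_mul, map_inv, he, mul_inv_cancel]
    have h4 : δ = δ' := mul_inv_eq_one.mp h3
    rw [h4]
    exact hδ'.2.2
  -- the element `z`
  have hd' := (hP1 d).mp hd
  obtain ⟨δ₀, hδ₀, rfl⟩ := hU2' d hd'.1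
  obtain ⟨z, hz, u₀, hu₀, hze⟩ := hmove δ₀ hδ₀ hd'.2
  have hzU : ∀ k ∈ σ.ker, ∀ u ∈ U, k * u ∈ U → k = 1 := by
    intro k hk u hu h1
    apply hU3 k hk
    have := U.mul_mem h1 (U.inv_mem hu)
    simpa using this
  have hzz : z * z = 1 := by
    -- `d ∈ P'` or `d² ∈ P'`
    have hd2 : σ (δ₀ * δ₀) ∈ P := by
      rw [map_mul]; exact P.mul_mem hd hd
    have h1 : (τ⁻¹ * (δ₀ * δ₀) * τ) = (z * z) * (u₀ * u₀) := by
      calc τ⁻¹ * (δ₀ * δ₀) * τ = (τ⁻¹ * δ₀ * τ) * (τ⁻¹ * δ₀ * τ) := by group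
        _ = (z * u₀) * (z * u₀) := by rw [hze]
        _ = z * (u₀ * z) * u₀ := by group
        _ = z * (z * u₀) * u₀ := by rw [hcen z hz u₀]
        _ = _ := by group
    rcases hP2 _ hd2 with h2 | h2
    · have h3 := hCU _ (U.mul_mem hδ₀ hδ₀) h2
      rw [h1] at h3
      exact hzU _ (σ.ker.mul_mem hz hz) _ (U.mul_mem hu₀ hu₀) h3
    · have h3 : σ (δ₀ * δ₀) * (σ δ₀)⁻¹ = σ δ₀ := by
        rw [map_mul]; group
      rw [h3] at h2
      have h4 := hCU _ hδ₀ h2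
      rw [hze] at h4
      have h5 := hzU z hz u₀ hu₀ h4
      rw [h5, one_mul]
  have hb2 : ∀ δ ∈ U, σ δ • b = b → τ⁻¹ * δ * τ ∈ U ∨ z⁻¹ * (τ⁻¹ * δ * τ) ∈ U := by
    intro δ hδ hf
    have hg : σ δ ∈ P := (hP1 _).mpr ⟨hU1' δ hδ, hf⟩
    rcases hP2 _ hg with h2 | h2
    · exact Or.inl (hCU δ hδ h2)
    · right
      have h3 : σ δ * (σ δ₀)⁻¹ = σ (δ * δ₀⁻¹) := by
        rw [map_mul, map_inv]
      rw [h3] at h2
      have h4 := hCU _ (U.mul_mem hδ (U.inv_mem hδ₀)) h2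
      have h5 : τ⁻¹ * δ * τ = (τ⁻¹ * (δ * δ₀⁻¹) * τ) * (τ⁻¹ * δ₀ * τ) := by group
      rw [h5, hze]
      have h6 : z⁻¹ * ((τ⁻¹ * (δ * δ₀⁻¹) * τ) * (z * u₀)) = (τ⁻¹ * (δ * δ₀⁻¹) * τ) * u₀ := by
        have h7 := hcen z hz (τ⁻¹ * (δ * δ₀⁻¹) * τ)
        rw [← mul_assoc (τ⁻¹ * (δ * δ₀⁻¹) * τ) z u₀, h7]
        group
      rw [h6]
      exact U.mul_mem h4 hu₀
  refine ⟨z, hz, hzz, ?_⟩
  -- pass to the quotient by `⟨z⟩`
  set N : Subgroup Γ := zpowers z with hN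
  have hNK : N ≤ σ.ker := by
    rw [hN, Subgroup.zpowers_le]
    exact hz
  have hNn : N.Normal := by
    constructor
    intro x hx g
    have h2 : g * x * g⁻¹ = x := by
      rw [hcen x (hNK hx) g]
      group
    rwa [h2]
  let π : Γ →* Γ ⧸ N := QuotientGroup.mk' N
  let ρ' : Γ ⧸ N →* G := QuotientGroup.lift N σ (fun x hx => hNK hx)
  have hρmk : ∀ x : Γ, ρ' (π x) = σ x := fun x => rfl
  have hker : ∀ y : Γ ⧸ N, y ∈ ρ'.ker → ∃ k ∈ σ.ker, π k = y := by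
    intro y hy
    obtain ⟨x, rfl⟩ := QuotientGroup.mk_surjective y
    exact ⟨x, hy, rfl⟩
  have hπz : π z = 1 := (QuotientGroup.eq_one_iff z).mpr (mem_zpowers z)
  have hτ' : ρ' (π τ) • a₀ = b := hτa
  have hF : FlatData ρ' a₀ (U.map π) (π τ) := by
    refine ⟨?_, ?_, ?_, ?_, ?_, ?_, ?_, ?_, ?_, ?_, ?_⟩
    · intro g
      obtain ⟨x, rfl⟩ := hs g
      exact ⟨π x, rfl⟩
    · intro y hy
      obtain ⟨k, hk, rfl⟩ := hker y hy
      rw [Subgroup.mem_center_iff]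
      intro g
      obtain ⟨x, rfl⟩ := QuotientGroup.mk_surjective g
      show π x * π k = π k * π x
      rw [← map_mul, ← map_mul, hcen k hk x]
    · rintro _ ⟨u, hu, rfl⟩
      exact hU1' u hu
    · intro g hg
      obtain ⟨u, hu, rfl⟩ := hU2' g hg
      exact ⟨π u, ⟨u, hu, rfl⟩, rfl⟩
    · rintro _ hk ⟨u, hu, rfl⟩
      have h1 : σ u = 1 := hk
      rw [hU3 u h1 hu, map_one]
    · rw [hτ']
      exact hab
    · refine ⟨τ * τ, ?_, map_mul _ _ _⟩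
      rw [hττ]
      exact U.one_mem
    · intro b' hb'
      rw [hτ']
      by_cases hbb : b' = b
      · subst hbb
        exact ⟨1, by simp, by simp⟩
      · obtain ⟨g, h1, h2, h3'⟩ := h3 a₀ b c a₀ b' b hab.symm hac.symm hbc.symm hb'.symm hab.symm hbb
        exact ⟨g, h1, h2⟩
    · intro b' b'' h1 h2 h4 h5
      rw [hτ'] at h2 h5 ⊢
      obtain ⟨g, h6, h7, h8⟩ := h3 a₀ b b' a₀ b b'' hab.symm h1.symm h2.symm hab.symm h4.symm h5.symm
      exact ⟨g, h6, h7, h8⟩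
    · rintro _ ⟨u, hu, rfl⟩ hf
      rw [hτ'] at hf
      have hf' : σ u • b = b := hf
      rcases hb2 u hu hf' with h1 | h1
      · exact ⟨_, h1, by simp only [map_mul, map_inv]⟩
      · refine ⟨_, h1, ?_⟩
        simp only [map_mul, map_inv, hπz, inv_one, one_mul]
    · rw [hτ']
      obtain ⟨g, h1, h2, h4⟩ := h3 a₀ b c a₀ c b hab.symm hac.symm hbc.symm hac.symm hab.symm hbc
      exact ⟨g, h1, by rw [h2]; exact hbc⟩
  obtain ⟨S, hS1, hS2⟩ := hF.exists_complement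
  have hbot : ρ'.ker = ⊥ := by
    refine ker_eq_bot_of_complement hF.hK ?_ hS1 hS2
    intro y hy
    obtain ⟨k, hk, rfl⟩ := hker y hy
    have h1 : π k ∈ (commutator Γ).map π := ⟨k, hK' hk, rfl⟩
    have h2 : (commutator Γ).map π ≤ commutator (Γ ⧸ N) := by
      rw [_root_.commutator_def, _root_.commutator_def, Subgroup.map_commutator]
      exact Subgroup.commutator_mono le_top le_top
    exact h2 h1
  intro k hk
  have h1 : π k ∈ ρ'.ker := hk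
  rw [hbot, Subgroup.mem_bot] at h1
  have h2 : k ∈ N := (QuotientGroup.eq_one_iff k).mp h1
  obtain ⟨i, rfl⟩ := Subgroup.mem_zpowers_iff.mp h2
  rcases Int.emod_two_eq_zero_or_one i with h3 | h3
  · left
    obtain ⟨j, rfl⟩ : ∃ j, i = 2 * j := ⟨i / 2, by omega⟩
    rw [zpow_mul, zpow_two, hzz, one_zpow]
  · right
    obtain ⟨j, rfl⟩ : ∃ j, i = 2 * j + 1 := ⟨i / 2, by omega⟩
    rw [zpow_add, zpow_mul, zpow_two, hzz, one_zpow, one_mul, zpow_one]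

end Cfsg.Agent.Lib.KnownSimple.SchurFlat
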