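import Mathlib
import Cfsg.Agent.Lib.KnownSimple.SchurLocal

/-!
# A two-local criterion for central extensions by groups of exponent two

`V` is an elementary abelian subgroup whose elements all lift to involutions, `x` is an element of
order three acting without fixed points on `V`, and `p`, `q` generate a dihedral group normalising
`V` and `⟨x⟩`.  Then the commutator subgroup of the preimage of `⟨V, p, q⟩` meets the kernel trivially.
-/

set_option autoImplicit false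

namespace Cfsg.Agent.Lib.KnownSimple.SchurTwoLocal

open Subgroup
open scoped commutatorElement

variable {Γ G : Type*} [Group Γ] [Group G]

/-- The lifts of `t` have trivial square. -/
def SqOne (σ : Γ →* G) (t : G) : Prop := ∀ w : Γ, σ w = t → w * w = 1

theorem SqOne.conj {σ : Γ →* G} (hs : Function.Surjective σ) {t : G} (h : SqOne σ t) (g : G) :
    SqOne σ (g * t * g⁻¹) := by
  intro w hw
  obtain ⟨g', rfl⟩ := hs g
  have h1 : σ (g'⁻¹ * w * g') = t := by
    rw [map_mul, map_mul, map_inv, hw]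
    group
  have h2 := h _ h1
  have h3 : w * w = g' * ((g'⁻¹ * w * g') * (g'⁻¹ * w * g')) * g'⁻¹ := by group
  rw [h3, h2]
  group

/-- Two lifts of an element differ by a kernel element. -/
theorem exists_ker_of_lift {σ : Γ →* G} {u v : Γ} (h : σ u = σ v) : ∃ k ∈ σ.ker, u = k * v := by
  refine ⟨u * v⁻¹, ?_, by group⟩
  rw [MonoidHom.mem_ker, map_mul, map_inv, h, mul_inv_cancel]

/-- The square of a lift is independent of the lift. -/
theorem sq_indep {σ : Γ →* G} (hK : σ.ker ≤ center Γ) (hk2 : ∀ k ∈ σ.ker, k * k = 1) {u v : Γ}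
    (h : σ u = σ v) : u * u = v * v := by
  obtain ⟨k, hk, rfl⟩ := exists_ker_of_lift h
  have e : v * k = k * v := Subgroup.mem_center_iff.mp (hK hk) v
  calc k * v * (k * v) = k * (v * k) * v := by group
    _ = k * (k * v) * v := by rw [e]
    _ = (k * k) * (v * v) := by group
    _ = v * v := by rw [hk2 k hk, one_mul]

/-- The key computation for commuting involutions. -/
theorem sqOne_of_commuting {σ : Γ →* G} (hs : Function.Surjective σ) (hK : σ.ker ≤ center Γ)
    (hk2 : ∀ k ∈ σ.ker, k * k = 1) (t₁ t₂ x g₁ g₂ : G) (h12 : t₁ * t₂ = t₂ * t₁) (h₁ : t₁ * t₁ = 1)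
    (h₂ : t₂ * t₂ = 1) (hx2 : x * t₂ = t₂ * x)
    (hx1 : t₁ * (x * t₁ * x⁻¹) * (x * (x * t₁ * x⁻¹) * x⁻¹) = 1)
    (hg₁ : g₁ * t₁ * g₁⁻¹ = t₁ * t₂) (hg₂ : g₂ * t₂ * g₂⁻¹ = t₁ * t₂) : SqOne σ (t₁ * t₂) := by
  obtain ⟨A, rfl⟩ := hs t₁
  obtain ⟨B, rfl⟩ := hs t₂
  obtain ⟨X, rfl⟩ := hs x
  obtain ⟨G₁, rfl⟩ := hs g₁
  obtain ⟨G₂, rfl⟩ := hs g₂
  have hcen : ∀ k ∈ σ.ker, ∀ t : Γ, t * k = k * t := fun k hk t =>
    Subgroup.mem_center_iff.mp (hK hk) t
  -- the commutator
  obtain ⟨c, hcK, hc⟩ : ∃ c ∈ σ.ker, A * B = c * (B * A) := by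
    refine exists_ker_of_lift ?_
    simp only [map_mul, h12]
  obtain ⟨k, hkK, hk⟩ : ∃ k ∈ σ.ker, X * B * X⁻¹ = k * B := by
    refine exists_ker_of_lift ?_
    simp only [map_mul, map_inv, hx2]
    group
  have ec : ∀ t : Γ, c * t = t * c := fun t => (hcen c hcK t).symm
  have ek : ∀ t : Γ, k * t = t * k := fun t => (hcen k hkK t).symm
  have hconj : ∀ D : Γ, D * B = c * (B * D) → (X * D * X⁻¹) * B = c * (B * (X * D * X⁻¹)) := by
    intro D hD
    have h1 : X⁻¹ * B * X = k⁻¹ * B := by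
      have : B = X⁻¹ * (k * B) * X := by rw [← hk]; group
      have h2 : X⁻¹ * (k * B) * X = k * (X⁻¹ * B * X) := by
        calc X⁻¹ * (k * B) * X = (X⁻¹ * k) * B * X := by group
          _ = (k * X⁻¹) * B * X := by rw [ek X⁻¹]
          _ = _ := by group
      rw [h2] at this
      calc X⁻¹ * B * X = k⁻¹ * (k * (X⁻¹ * B * X)) := by group
        _ = k⁻¹ * B := by rw [← this]
    calc (X * D * X⁻¹) * B = X * D * (X⁻¹ * B * X) * X⁻¹ := by group
      _ = X * D * (k⁻¹ * B) * X⁻¹ := by rw [h1]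
      _ = X * (D * k⁻¹) * B * X⁻¹ := by group
      _ = X * (k⁻¹ * D) * B * X⁻¹ := by rw [hcen _ (inv_mem hkK) D]
      _ = X * k⁻¹ * (D * B) * X⁻¹ := by group
      _ = X * k⁻¹ * (c * (B * D)) * X⁻¹ := by rw [hD]
      _ = k⁻¹ * X * (c * (B * D)) * X⁻¹ := by rw [hcen _ (inv_mem hkK) X]
      _ = k⁻¹ * ((X * c) * (B * D)) * X⁻¹ := by group
      _ = k⁻¹ * ((c * X) * (B * D)) * X⁻¹ := by rw [ec X]
      _ = (k⁻¹ * c) * (X * B * X⁻¹) * (X * D * X⁻¹) := by group
      _ = (k⁻¹ * c) * (k * B) * (X * D * X⁻¹) := by rw [hk]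
      _ = (c * k⁻¹) * (k * B) * (X * D * X⁻¹) := by rw [hcen _ (inv_mem hkK) c]
      _ = c * (B * (X * D * X⁻¹)) := by group
  have hA' := hconj A hc
  have hA'' := hconj _ hA'
  set A' := X * A * X⁻¹ with hA'd
  set A'' := X * A' * X⁻¹ with hA''d
  have hn : A * A' * A'' ∈ σ.ker := by
    rw [MonoidHom.mem_ker]
    simp only [map_mul, map_inv, hA'd, hA''d]
    exact hx1
  have hc3 : c * c * c = 1 := by
    have h1 : (A * A' * A'') * B = (c * c * c) * (B * (A * A' * A'')) := by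
      calc (A * A' * A'') * B = A * A' * (A'' * B) := by group
        _ = A * A' * (c * (B * A'')) := by rw [hA'']
        _ = c * (A * A' * (B * A'')) := by
            rw [show A * A' * (c * (B * A'')) = (A * A') * c * (B * A'') by group, ← ec (A * A')]
            group
        _ = c * (A * (A' * B) * A'') := by group
        _ = c * (A * (c * (B * A')) * A'') := by rw [hA']
        _ = c * (c * (A * B * A' * A'')) := by
            rw [show A * (c * (B * A')) * A'' = (A * c) * (B * A') * A'' by group, ← ec A]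
            group
        _ = c * (c * ((c * (B * A)) * A' * A'')) := by rw [hc]
        _ = (c * c * c) * (B * (A * A' * A'')) := by group
    have h2 : (A * A' * A'') * B = B * (A * A' * A'') := (hcen _ hn B).symm
    rw [h2] at h1
    have h3 : (c * c * c) * (B * (A * A' * A'')) = B * (A * A' * A'') := h1.symm
    exact mul_eq_right.mp h3
  have hc1 : c = 1 := by
    have := hk2 c hcK
    rw [this, one_mul] at hc3
    exact hc3
  have hAB : A * B = B * A := by rw [hc, hc1, one_mul]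
  -- the squares
  have hWK : (A * B) * (A * B) ∈ σ.ker := by
    rw [MonoidHom.mem_ker]
    simp only [map_mul]
    calc σ A * σ B * (σ A * σ B) = σ A * (σ B * σ A) * σ B := by group
      _ = σ A * (σ A * σ B) * σ B := by rw [h12]
      _ = (σ A * σ A) * (σ B * σ B) := by group
      _ = 1 := by rw [h₁, h₂, one_mul]
  have hsqA : A * A = (A * B) * (A * B) := by
    have h1 : σ (G₁ * A * G₁⁻¹) = σ (A * B) := by
      simp only [map_mul, map_inv]
      exact hg₁
    have h2 := sq_indep hK hk2 h1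
    have h3 : (G₁ * A * G₁⁻¹) * (G₁ * A * G₁⁻¹) = G₁ * (A * A) * G₁⁻¹ := by group
    rw [h3] at h2
    rw [← h2]
    have hAA : A * A ∈ σ.ker := by
      rw [MonoidHom.mem_ker, map_mul]; exact h₁
    rw [hcen _ hAA G₁]
    group
  have hsqB : B * B = (A * B) * (A * B) := by
    have h1 : σ (G₂ * B * G₂⁻¹) = σ (A * B) := by
      simp only [map_mul, map_inv]
      exact hg₂
    have h2 := sq_indep hK hk2 h1
    have h3 : (G₂ * B * G₂⁻¹) * (G₂ * B * G₂⁻¹) = G₂ * (B * B) * G₂⁻¹ := by group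
    rw [h3] at h2
    rw [← h2]
    have hBB : B * B ∈ σ.ker := by
      rw [MonoidHom.mem_ker, map_mul]; exact h₂
    rw [hcen _ hBB G₂]
    group
  have hW1 : (A * B) * (A * B) = 1 := by
    have h1 : (A * B) * (A * B) = (A * A) * (B * B) := by
      calc (A * B) * (A * B) = A * (B * A) * B := by group
        _ = A * (A * B) * B := by rw [hAB]
        _ = _ := by group
    rw [hsqA, hsqB, hk2 _ hWK] at h1
    exact h1
  intro w hw
  have h1 : σ w = σ (A * B) := by rw [hw, map_mul]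
  rw [sq_indep hK hk2 h1, hW1]

/-- The two-local criterion. -/
theorem two_local {σ : Γ →* G} (hs : Function.Surjective σ) (hK : σ.ker ≤ center Γ)
    (hk2 : ∀ k ∈ σ.ker, k * k = 1) (V : Subgroup G) (x p q : G)
    (hVsq : ∀ v ∈ V, SqOne σ v) (hxV : ∀ v ∈ V, x * v * x⁻¹ ∈ V) (hx3 : x * x * x = 1)
    (hfpf : ∀ v ∈ V, v * (x * v * x⁻¹) * (x * (x * v * x⁻¹) * x⁻¹) = 1)
    (hpV : ∀ v ∈ V, p * v * p⁻¹ ∈ V) (hqV : ∀ v ∈ V, q * v * q⁻¹ ∈ V)
    (hpx : p * x * p⁻¹ = x ∨ p * x * p⁻¹ = x⁻¹) (hqx : q * x * q⁻¹ = x ∨ q * x * q⁻¹ = x⁻¹)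
    (hp : SqOne σ p) (hq : SqOne σ q) (hu : SqOne σ (p * q * (p * q))) (huV : p * q * (p * q) ∉ V)
    {z : Γ} (hz : z ∈ σ.ker)
    (hzU : z ∈ ⁅(closure ((V : Set G) ∪ {p, q})).comap σ, (closure ((V : Set G) ∪ {p, q})).comap σ⁆) :
    z = 1 := by
  have hcen : ∀ k ∈ σ.ker, ∀ t : Γ, t * k = k * t := fun k hk t =>
    Subgroup.mem_center_iff.mp (hK hk) t
  obtain ⟨X, rfl⟩ := hs x
  obtain ⟨P, rfl⟩ := hs p
  obtain ⟨Q, rfl⟩ := hs q
  set Vt : Subgroup Γ := V.comap σ with hVt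
  have hVi : ∀ w ∈ Vt, w * w = 1 := fun w hw => hVsq (σ w) hw w rfl
  have hVinv : ∀ w ∈ Vt, w⁻¹ = w := fun w hw => inv_eq_of_mul_eq_one_left (hVi w hw)
  have hVc : ∀ w ∈ Vt, ∀ w' ∈ Vt, w * w' = w' * w := by
    intro w hw w' hw'
    have h1 := hVi _ (Vt.mul_mem hw hw')
    have h2 : (w * w')⁻¹ = w * w' := inv_eq_of_mul_eq_one_left h1
    rw [mul_inv_rev, hVinv w hw, hVinv w' hw'] at h2
    exact h2.symm
  have hkV : ∀ k ∈ σ.ker, k ∈ Vt := by
    intro k hk
    rw [hVt, Subgroup.mem_comap, MonoidHom.mem_ker.mp hk]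
    exact V.one_mem
  have hPP : P * P = 1 := hp P rfl
  have hQQ : Q * Q = 1 := hq Q rfl
  have hPi : P⁻¹ = P := inv_eq_of_mul_eq_one_left hPP
  have hQi : Q⁻¹ = Q := inv_eq_of_mul_eq_one_left hQQ
  set c : Γ := P * Q * (P * Q) with hc
  have hcc : c * c = 1 := hu c (by rw [hc]; simp only [map_mul])
  have hci : c⁻¹ = c := inv_eq_of_mul_eq_one_left hcc
  have hcQP : c = Q * P * (Q * P) := by
    have h1 : c * (Q * P * (Q * P)) = 1 := by
      rw [hc]
      calc P * Q * (P * Q) * (Q * P * (Q * P)) = P * Q * P * (Q * Q) * P * (Q * P) := by group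
        _ = P * Q * (P * P) * (Q * P) := by rw [hQQ]; group
        _ = P * (Q * Q) * P := by rw [hPP]; group
        _ = P * P := by rw [hQQ]; group
        _ = 1 := hPP
    have h2 := eq_inv_of_mul_eq_one_right h1
    rw [h2, hci]
  have hPc : P * c * P⁻¹ = c := by
    rw [hPi]
    nth_rewrite 1 [hc]
    calc P * (P * Q * (P * Q)) * P = (P * P) * (Q * P * (Q * P)) := by group
      _ = c := by rw [hPP, one_mul, ← hcQP]
  have hQc : Q * c * Q⁻¹ = c := by
    rw [hQi]
    nth_rewrite 1 [hcQP]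
    calc Q * (Q * P * (Q * P)) * Q = (Q * Q) * (P * Q * (P * Q)) := by group
      _ = c := by rw [hQQ, one_mul]
  -- conjugation by `X`
  let C : Γ → Γ := fun w => X * w * X⁻¹
  have hCd : ∀ w, C w = X * w * X⁻¹ := fun _ => rfl
  have hCV : ∀ w ∈ Vt, C w ∈ Vt := by
    intro w hw
    rw [hVt, Subgroup.mem_comap, hCd]
    simp only [map_mul, map_inv]
    exact hxV _ hw
  have hX3 : X * X * X ∈ σ.ker := by
    rw [MonoidHom.mem_ker]
    simp only [map_mul]
    exact hx3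
  have hC3 : ∀ w, C (C (C w)) = w := by
    intro w
    simp only [hCd]
    calc X * (X * (X * w * X⁻¹) * X⁻¹) * X⁻¹ = (X * X * X) * w * (X * X * X)⁻¹ := by group
      _ = w := by rw [← hcen _ hX3 w]; group
  have hCmul : ∀ w w', C (w * w') = C w * C w' := by
    intro w w'
    simp only [hCd]
    group
  have hCk : ∀ k ∈ σ.ker, C k = k := by
    intro k hk
    rw [hCd, hcen k hk X]
    group
  let f : Γ → Γ := fun w => w * C w * C (C w)
  have hfd : ∀ w, f w = w * C w * C (C w) := fun _ => rfl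
  have hfK : ∀ w ∈ Vt, f w ∈ σ.ker := by
    intro w hw
    rw [MonoidHom.mem_ker, hfd]
    simp only [hCd, map_mul, map_inv]
    exact hfpf _ hw
  have hf1 : f 1 = 1 := by
    rw [hfd, hCk 1 (one_mem _), hCk 1 (one_mem _), one_mul, one_mul]
  have hfk : ∀ k ∈ σ.ker, f k = k := by
    intro k hk
    rw [hfd, hCk k hk, hCk k hk, hk2 k hk, one_mul]
  have hfmul : ∀ w ∈ Vt, ∀ w' ∈ Vt, f (w * w') = f w * f w' := by
    intro w hw w' hw'
    have c1 := hCV w hw
    have c2 := hCV _ c1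
    have c3 := hCV w' hw'
    have c4 := hCV _ c3
    simp only [hfd, hCmul]
    calc w * w' * (C w * C w') * (C (C w) * C (C w'))
        = w * (w' * C w) * C w' * (C (C w) * C (C w')) := by group
      _ = w * (C w * w') * C w' * (C (C w) * C (C w')) := by rw [hVc w' hw' _ c1]
      _ = w * C w * (w' * C w' * C (C w)) * C (C w') := by group
      _ = w * C w * (C (C w) * (w' * C w')) * C (C w') := by
          rw [hVc (w' * C w') (Vt.mul_mem hw' c3) _ c2]
      _ = w * C w * C (C w) * (w' * C w' * C (C w')) := by group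
  have hfsq : ∀ w ∈ Vt, f w * f w = 1 := fun w hw => hk2 _ (hfK w hw)
  have hfinv : ∀ w ∈ Vt, f w⁻¹ = f w := by
    intro w hw
    rw [hVinv w hw]
  -- invariance under conjugation
  have hfs : ∀ s : Γ, (σ s * σ X * (σ s)⁻¹ = σ X ∨ σ s * σ X * (σ s)⁻¹ = (σ X)⁻¹) →
      ∀ w ∈ Vt, s * w * s⁻¹ ∈ Vt → f (s * w * s⁻¹) = f w := by
    intro s hsx w hw hsw
    have hcentral : ∀ y ∈ σ.ker, s * y * s⁻¹ = y := by
      intro y hy
      rw [hcen y hy s]
      group
    have hfw := hfK w hw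
    rcases hsx with hsx | hsx
    · -- case `+`
      obtain ⟨k₁, hk₁, h1⟩ : ∃ k ∈ σ.ker, s * X = k * (X * s) := by
        refine exists_ker_of_lift ?_
        simp only [map_mul]
        exact (mul_inv_eq_iff_eq_mul.mp hsx)
      have h2 : ∀ y, C (s * y * s⁻¹) = s * C y * s⁻¹ := by
        intro y
        simp only [hCd]
        have e1 : X * s = k₁⁻¹ * (s * X) := by rw [h1]; group
        have e2 : s⁻¹ * X⁻¹ = (X * s)⁻¹ := by group
        calc X * (s * y * s⁻¹) * X⁻¹ = (X * s) * y * (s⁻¹ * X⁻¹) := by group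
          _ = (X * s) * y * (X * s)⁻¹ := by rw [e2]
          _ = (k₁⁻¹ * (s * X)) * y * (k₁⁻¹ * (s * X))⁻¹ := by rw [e1]
          _ = k₁⁻¹ * ((s * X) * y * (s * X)⁻¹) * k₁ := by group
          _ = ((s * X) * y * (s * X)⁻¹) * (k₁⁻¹ * k₁) := by
              rw [hcen _ (inv_mem hk₁) _ |>.symm]; group
          _ = s * (X * y * X⁻¹) * s⁻¹ := by group
      rw [hfd, h2, h2]
      have h3 : s * w * s⁻¹ * (s * C w * s⁻¹) * (s * C (C w) * s⁻¹) = s * f w * s⁻¹ := by
        rw [hfd]; group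
      rw [h3, hcentral _ hfw]
    · -- case `-`
      obtain ⟨k₁, hk₁, h1⟩ : ∃ k ∈ σ.ker, s * X * s⁻¹ = k * X⁻¹ := by
        refine exists_ker_of_lift ?_
        simp only [map_mul, map_inv]
        exact hsx
      have h2 : ∀ y, C (C (s * y * s⁻¹)) = s * C y * s⁻¹ := by
        intro y
        have e0 : ∀ u, C (C u) = X⁻¹ * u * X := by
          intro u
          simp only [hCd]
          calc X * (X * u * X⁻¹) * X⁻¹ = (X * X * X) * (X⁻¹ * u * X) * (X * X * X)⁻¹ := by group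
            _ = X⁻¹ * u * X := by rw [← hcen _ hX3 (X⁻¹ * u * X)]; group
        rw [e0, hCd]
        have e1 : X⁻¹ * s = k₁⁻¹ * (s * X) := by
          have : k₁ * X⁻¹ * s = s * X := by rw [← h1]; group
          rw [← this]; group
        have e2 : s⁻¹ * X = (X⁻¹ * s)⁻¹ := by group
        calc X⁻¹ * (s * y * s⁻¹) * X = (X⁻¹ * s) * y * (s⁻¹ * X) := by group
          _ = (X⁻¹ * s) * y * (X⁻¹ * s)⁻¹ := by rw [e2]
          _ = (k₁⁻¹ * (s * X)) * y * (k₁⁻¹ * (s * X))⁻¹ := by rw [e1]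
          _ = k₁⁻¹ * ((s * X) * y * (s * X)⁻¹) * k₁ := by group
          _ = ((s * X) * y * (s * X)⁻¹) * (k₁⁻¹ * k₁) := by
              rw [hcen _ (inv_mem hk₁) _ |>.symm]; group
          _ = s * (X * y * X⁻¹) * s⁻¹ := by group
      have h3 : C (s * w * s⁻¹) = s * C (C w) * s⁻¹ := by
        have h4 : C (C (C (C (s * w * s⁻¹)))) = C (s * w * s⁻¹) := hC3 _
        rw [h2 w, h2 (C w)] at h4
        exact h4.symm
      rw [hfd, h2, h3]
      have h6 : s * w * s⁻¹ * (s * C (C w) * s⁻¹) * (s * C w * s⁻¹) = s * (w * C (C w) * C w) * s⁻¹ := by group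
      rw [h6]
      have c1 := hCV w hw
      have c2 := hCV _ c1
      have h7 : w * C (C w) * C w = f w := by
        rw [hfd, mul_assoc w (C (C w)), hVc _ c2 _ c1, ← mul_assoc]
      rw [h7, hcentral _ hfw]
  have hPV : ∀ w ∈ Vt, P * w * P⁻¹ ∈ Vt := by
    intro w hw
    rw [hVt, Subgroup.mem_comap]
    simp only [map_mul, map_inv]
    exact hpV _ hw
  have hQV : ∀ w ∈ Vt, Q * w * Q⁻¹ ∈ Vt := by
    intro w hw
    rw [hVt, Subgroup.mem_comap]
    simp only [map_mul, map_inv]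
    exact hqV _ hw
  have hfP : ∀ w ∈ Vt, f (P * w * P⁻¹) = f w := fun w hw => hfs P hpx w hw (hPV w hw)
  have hfQ : ∀ w ∈ Vt, f (Q * w * Q⁻¹) = f w := fun w hw => hfs Q hqx w hw (hQV w hw)
  have hcV : ∀ w ∈ Vt, c * w * c⁻¹ ∈ Vt := by
    intro w hw
    have h1 : c * w * c⁻¹ = P * (Q * (P * (Q * w * Q⁻¹) * P⁻¹) * Q⁻¹) * P⁻¹ := by
      rw [hc]; group
    rw [h1]
    exact hPV _ (hQV _ (hPV _ (hQV _ hw)))
  have hfc : ∀ w ∈ Vt, f (c * w * c⁻¹) = f w := by
    intro w hw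
    have h1 : c * w * c⁻¹ = P * (Q * (P * (Q * w * Q⁻¹) * P⁻¹) * Q⁻¹) * P⁻¹ := by
      rw [hc]; group
    rw [h1, hfP _ (hQV _ (hPV _ (hQV _ hw))), hfQ _ (hPV _ (hQV _ hw)), hfP _ (hQV _ hw), hfQ _ hw]
  -- the subgroup
  let N : Subgroup Γ :=
    { carrier := {γ | ∃ w ∈ Vt, f w = 1 ∧ (w = γ ∨ w * c = γ)}
      one_mem' := ⟨1, Vt.one_mem, hf1, Or.inl rfl⟩
      mul_mem' := by
        rintro a b ⟨w, hw, hfw, rfl | rfl⟩ ⟨w', hw', hfw', rfl | rfl⟩
        · exact ⟨w * w', Vt.mul_mem hw hw', by rw [hfmul w hw w' hw', hfw, hfw', one_mul], Or.inl rfl⟩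
        · exact ⟨w * w', Vt.mul_mem hw hw', by rw [hfmul w hw w' hw', hfw, hfw', one_mul], Or.inr (by group)⟩
        · refine ⟨w * (c * w' * c⁻¹), Vt.mul_mem hw (hcV w' hw'), ?_, Or.inr (by group)⟩
          rw [hfmul w hw _ (hcV w' hw'), hfc w' hw', hfw, hfw', one_mul]
        · refine ⟨w * (c * w' * c⁻¹), Vt.mul_mem hw (hcV w' hw'), ?_, Or.inl ?_⟩
          · rw [hfmul w hw _ (hcV w' hw'), hfc w' hw', hfw, hfw', one_mul]
          · calc w * (c * w' * c⁻¹) = w * (c * w' * c⁻¹) * (c * c) := by rw [hcc, mul_one]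
              _ = w * c * (w' * c) := by group
      inv_mem' := by
        rintro a ⟨w, hw, hfw, rfl | rfl⟩
        · exact ⟨w⁻¹, Vt.inv_mem hw, by rw [hfinv w hw, hfw], Or.inl rfl⟩
        · refine ⟨c * w⁻¹ * c⁻¹, hcV _ (Vt.inv_mem hw), ?_, Or.inr ?_⟩
          · rw [hfc _ (Vt.inv_mem hw), hfinv w hw, hfw]
          · calc c * w⁻¹ * c⁻¹ * c = c * w⁻¹ := by group
              _ = c⁻¹ * w⁻¹ := by rw [hci]
              _ = (w * c)⁻¹ := by group }
  have hNmem1 : ∀ w ∈ Vt, f w = 1 → w ∈ N := fun w hw hfw => ⟨w, hw, hfw, Or.inl rfl⟩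
  have hNmem2 : ∀ w ∈ Vt, f w = 1 → w * c ∈ N := fun w hw hfw => ⟨w, hw, hfw, Or.inr rfl⟩
  have hnorm : ∀ t : Γ, t * t = 1 → (∀ n ∈ N, t * n * t⁻¹ ∈ N) → t ∈ normalizer (N : Set Γ) := by
    intro t ht h1
    rw [Subgroup.mem_normalizer_iff]
    intro n
    constructor
    · exact h1 n
    · intro h2
      have h3 := h1 _ h2
      have hti : t⁻¹ = t := inv_eq_of_mul_eq_one_left ht
      have h4 : t * (t * n * t⁻¹) * t⁻¹ = n := by
        rw [hti]
        calc t * (t * n * t) * t = (t * t) * n * (t * t) := by group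
          _ = n := by rw [ht]; group
      rwa [h4] at h3
  have hnormP : ∀ (S : Γ), S * S = 1 → S * c * S⁻¹ = c → (∀ w ∈ Vt, S * w * S⁻¹ ∈ Vt) →
      (∀ w ∈ Vt, f (S * w * S⁻¹) = f w) → S ∈ normalizer (N : Set Γ) := by
    intro S hSS hSc hSV hSf
    refine hnorm S hSS ?_
    rintro n ⟨w, hw, hfw, rfl | rfl⟩
    · exact hNmem1 _ (hSV w hw) (by rw [hSf w hw, hfw])
    · have h1 : S * (w * c) * S⁻¹ = (S * w * S⁻¹) * (S * c * S⁻¹) := by group
      rw [h1, hSc]
      exact hNmem2 _ (hSV w hw) (by rw [hSf w hw, hfw])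
  -- the commutators
  have hS : ⁅closure ((Vt : Set Γ) ∪ {P, Q}), closure ((Vt : Set Γ) ∪ {P, Q})⁆ ≤ N := by
    apply Cfsg.Agent.Lib.KnownSimple.commutator_closure_le
    · rw [closure_le]
      rintro t (ht | ht | ht)
      · refine hnorm t (hVi t ht) ?_
        rintro n ⟨w, hw, hfw, rfl | rfl⟩
        · rw [hVc t ht w hw, hVinv t ht]
          have : w * t * t = w := by rw [mul_assoc, hVi t ht, mul_one]
          rw [this]
          exact hNmem1 w hw hfw
        · have hw2 : t * (c * t⁻¹ * c⁻¹) ∈ Vt := Vt.mul_mem ht (hcV _ (Vt.inv_mem ht))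
          have h2 : t * (w * c) * t⁻¹ = (w * (t * (c * t⁻¹ * c⁻¹))) * c := by
            calc t * (w * c) * t⁻¹ = (t * w) * c * t⁻¹ := by group
              _ = (w * t) * c * t⁻¹ := by rw [hVc t ht w hw]
              _ = _ := by group
          rw [h2]
          refine hNmem2 _ (Vt.mul_mem hw hw2) ?_
          rw [hfmul w hw _ hw2, hfmul t ht _ (hcV _ (Vt.inv_mem ht)), hfc _ (Vt.inv_mem ht), hfinv t ht,
            hfsq t ht, hfw, one_mul]
      · rw [ht]
        exact hnormP P hPP hPc hPV hfP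
      · rw [Set.mem_singleton_iff.mp ht]
        exact hnormP Q hQQ hQc hQV hfQ
    · have hVV : ∀ w ∈ Vt, ∀ w' ∈ Vt, ⁅w, w'⁆ ∈ N := by
        intro w hw w' hw'
        have : ⁅w, w'⁆ = 1 := by
          rw [commutatorElement_eq_one_iff_mul_comm]
          exact hVc w hw w' hw'
        rw [this]
        exact one_mem _
      have hVS : ∀ S : Γ, (∀ w ∈ Vt, S * w * S⁻¹ ∈ Vt) → (∀ w ∈ Vt, f (S * w * S⁻¹) = f w) →
          ∀ w ∈ Vt, ⁅S, w⁆ ∈ N ∧ ⁅w, S⁆ ∈ N := by
        intro S hSV hSf w hw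
        have h1 : ⁅S, w⁆ = (S * w * S⁻¹) * w⁻¹ := by
          rw [commutatorElement_def]
        have h2 : ⁅S, w⁆ ∈ N := by
          rw [h1]
          refine hNmem1 _ (Vt.mul_mem (hSV w hw) (Vt.inv_mem hw)) ?_
          rw [hfmul _ (hSV w hw) _ (Vt.inv_mem hw), hSf w hw, hfinv w hw, hfsq w hw]
        refine ⟨h2, ?_⟩
        have h3 : ⁅w, S⁆ = ⁅S, w⁆⁻¹ := by
          simp only [commutatorElement_def]; group
        rw [h3]
        exact inv_mem h2
      have hPQ : ⁅P, Q⁆ = c := by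
        rw [commutatorElement_def, hPi, hQi, hc]
        group
      have hQP : ⁅Q, P⁆ = c := by
        rw [commutatorElement_def, hPi, hQi, hcQP]
        group
      have hc1 : c ∈ N := by
        have := hNmem2 1 Vt.one_mem hf1
        rwa [one_mul] at this
      rintro s (hs' | hs' | hs') t (ht | ht | ht)
      · exact hVV s hs' t ht
      · rw [ht]; exact (hVS P hPV hfP s hs').2
      · rw [Set.mem_singleton_iff.mp ht]; exact (hVS Q hQV hfQ s hs').2
      · rw [hs']; exact (hVS P hPV hfP t ht).1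
      · rw [hs', ht, commutatorElement_self]; exact one_mem _
      · rw [hs', Set.mem_singleton_iff.mp ht, hPQ]; exact hc1
      · rw [Set.mem_singleton_iff.mp hs']; exact (hVS Q hQV hfQ t ht).1
      · rw [Set.mem_singleton_iff.mp hs', ht, hQP]; exact hc1
      · rw [Set.mem_singleton_iff.mp hs', Set.mem_singleton_iff.mp ht, commutatorElement_self]; exact one_mem _
  have hgen : (closure ((V : Set G) ∪ {σ P, σ Q})).comap σ ≤ closure ((Vt : Set Γ) ∪ {P, Q}) := by
    intro t ht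
    have h3 : closure ((V : Set G) ∪ {σ P, σ Q}) ≤ (closure ((Vt : Set Γ) ∪ {P, Q})).map σ := by
      rw [closure_le]
      rintro g (hg | hg | hg)
      · obtain ⟨g', rfl⟩ := hs g
        exact ⟨g', subset_closure (Or.inl hg), rfl⟩
      · rw [hg]
        exact ⟨P, subset_closure (Or.inr (Or.inl rfl)), rfl⟩
      · rw [Set.mem_singleton_iff.mp hg]
        exact ⟨Q, subset_closure (Or.inr (Or.inr rfl)), rfl⟩
    obtain ⟨t', ht', he⟩ := h3 ht
    have h4 : t = t' * (t'⁻¹ * t) := by group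
    rw [h4]
    refine mul_mem ht' (subset_closure (Or.inl (hkV _ ?_)))
    rw [MonoidHom.mem_ker, map_mul, map_inv, he, inv_mul_cancel]
  obtain ⟨w, hw, hfw, h5 | h5⟩ := hS (Subgroup.commutator_mono hgen hgen hzU)
  · rw [← h5] at hz ⊢
    rw [← hfk w hz, hfw]
  · exfalso
    apply huV
    have h6 : σ w * σ c = 1 := by
      rw [← map_mul, h5]
      exact hz
    have h7 : σ c = (σ w)⁻¹ := eq_inv_of_mul_eq_one_right h6
    have h8 : σ c = σ P * σ Q * (σ P * σ Q) := by
      rw [hc]; simp only [map_mul]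
    rw [← h8, h7]
    exact V.inv_mem hw

end Cfsg.Agent.Lib.KnownSimple.SchurTwoLocal
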