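import Mathlib
import Cfsg.Agent.Lib.Suzuki.TwoGen
import Cfsg.Agent.Lib.Suzuki.Star
import Cfsg.Agent.Lib.KnownSimple.LabMat

/-! The Suzuki group is generated by a torus element and a fixed element, and small facts. -/

set_option autoImplicit false

namespace Cfsg.Agent.Lib.KnownSimple.SzGen

open Cfsg.Agent.Lib.Suzuki
open Matrix
open scoped Pointwise

section

variable {F : Type*} [Field F] [Fintype F] {m : ℕ}
variable (hF : Fintype.card F = 2 ^ (2 * m + 1)) (hm : 1 ≤ m)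
include hF hm

/-- Two explicit generators. -/
theorem two_gen' (t0 : Fˣ) (ht0 : ∀ x : Fˣ, x ∈ Subgroup.zpowers t0) (ht1 : t0 ≠ 1) :
    Subgroup.closure ({tG hF t0, uG hF 1 0 * wG hF hm} : Set (Cfsg.Sz F m)) = ⊤ := by
  have h2 := two_zero hF
  let τ := tG hF t0
  let b := uG hF 1 0 * wG hF hm
  set L := Subgroup.closure ({τ, b} : Set (Cfsg.Sz F m)) with hL
  have hτ : τ ∈ L := Subgroup.subset_closure (by simp)
  have hb : b ∈ L := Subgroup.subset_closure (by simp)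
  -- the whole torus
  have hT : ∀ t : Fˣ, tG hF t ∈ L := by
    intro t
    obtain ⟨k, rfl⟩ := Subgroup.mem_zpowers_iff.mp (ht0 t)
    have : tG hF (t0 ^ k) = τ ^ k := by
      have e : (MonoidHom.mk' (tG hF) (fun s t => (tG_mul hF s t).symm)) (t0 ^ k) = (MonoidHom.mk' (tG hF) (fun s t => (tG_mul hF s t).symm)) t0 ^ k := map_zpow _ _ _
      exact e
    rw [this]
    exact L.zpow_mem hτ k
  -- an element with nonzero first coordinate
  have hne : (t0 : F) + 1 ≠ 0 := by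
    intro h
    apply ht1
    apply Units.ext
    rw [Units.val_one]
    grind
  have hv : ∃ c : F, uG hF ((t0 : F) + 1) c ∈ L := by
    have e1 : τ * (b * τ * b⁻¹) ∈ L := L.mul_mem hτ (L.mul_mem (L.mul_mem hb hτ) (L.inv_mem hb))
    have e2 : τ * (b * τ * b⁻¹) = uG hF (t0 : F) 0 * (uG hF 1 0)⁻¹ := by
      have h3 : wG hF hm * τ * (wG hF hm)⁻¹ = τ⁻¹ := by
        rw [wG_inv hF hm]
        show wG hF hm * tG hF t0 * wG hF hm = (tG hF t0)⁻¹
        rw [wG_tG_wG hF hm, tG_inv hF]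
      have h4 : b * τ * b⁻¹ = uG hF 1 0 * (wG hF hm * τ * (wG hF hm)⁻¹) * (uG hF 1 0)⁻¹ := by
        show (uG hF 1 0 * wG hF hm) * τ * (uG hF 1 0 * wG hF hm)⁻¹ = _
        group
      rw [h4, h3]
      have h5 := tG_conj hF hm t0 1 0
      rw [mul_one, mul_zero] at h5
      rw [← h5]
      show tG hF t0 * (uG hF 1 0 * (tG hF t0)⁻¹ * (uG hF 1 0)⁻¹) = _
      group
    rw [e2, uG_inv hF hm, uG_mul hF] at e1
    exact ⟨_, e1⟩
  -- every first coordinate occurs
  have hfirst : ∀ a : F, ∃ c : F, uG hF a c ∈ L := by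
    intro a
    by_cases ha : a = 0
    · subst ha
      exact ⟨0, by rw [uG_zero hF hm]; exact L.one_mem⟩
    obtain ⟨c, hc⟩ := hv
    have hz : a / ((t0 : F) + 1) ≠ 0 := div_ne_zero ha hne
    let s : Fˣ := Units.mk0 _ hz
    have h3 := L.mul_mem (L.mul_mem (hT s) hc) (L.inv_mem (hT s))
    rw [tG_conj hF hm] at h3
    have e : (s : F) * ((t0 : F) + 1) = a := by
      show a / ((t0 : F) + 1) * ((t0 : F) + 1) = a
      field_simp
    rw [e] at h3
    exact ⟨_, h3⟩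
  -- the centre
  have hZ : ∀ e : F, uG hF 0 e ∈ L := by
    intro e
    obtain ⟨a, c, hac⟩ := central_is_commutator hF hm e
    obtain ⟨d1, h1⟩ := hfirst a
    obtain ⟨d2, h3⟩ := hfirst c
    have h4 := L.mul_mem (L.mul_mem (L.mul_mem h1 h3) (L.inv_mem h1)) (L.inv_mem h3)
    rw [commutator_form hF hm, hac] at h4
    exact h4
  have hU : ∀ a c : F, uG hF a c ∈ L := by
    intro a c
    obtain ⟨d, hd⟩ := hfirst a
    have h3 := L.mul_mem hd (hZ (d + c))
    rw [uG_mul hF, mul_zero] at h3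
    have e1 : a + 0 = a := add_zero a
    have e2 : d + (d + c) + 0 = c := by grind
    rwa [e1, e2] at h3
  have hW : wG hF hm ∈ L := by
    have : wG hF hm = (uG hF 1 0)⁻¹ * b := by
      show wG hF hm = (uG hF 1 0)⁻¹ * (uG hF 1 0 * wG hF hm)
      group
    rw [this]
    exact L.mul_mem (L.inv_mem (hU _ _)) hb
  rw [eq_top_iff]
  intro g _
  rcases bruhatG hF hm g with ⟨a', b', t, e⟩ | ⟨x, y, a', b', t, e⟩
  · rw [e]
    exact L.mul_mem (hU _ _) (hT _)
  · rw [e]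
    exact L.mul_mem (L.mul_mem (hU _ _) hW) (L.mul_mem (hU _ _) (hT _))


end

section transfer

universe u v

/-- The multiplier is an isomorphism invariant. -/
theorem schur_of_equiv {G G' : Type u} [Group G] [Group G'] (e : G ≃* G') {A : Type v} [CommGroup A]
    (h : Cfsg.HasSchurMultiplier G A) : Cfsg.HasSchurMultiplier G' A := by
  obtain ⟨⟨Γ, i1, i2, σ, hσ, ⟨k⟩⟩, h2⟩ := h
  refine ⟨⟨Γ, i1, i2, e.toMonoidHom.comp σ, ?_, ?_⟩, ?_⟩
  · have hker : (e.toMonoidHom.comp σ).ker = σ.ker := by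
      ext x
      simp [MonoidHom.mem_ker]
    refine ⟨e.surjective.comp hσ.1, ?_, ?_⟩
    · rw [hker]; exact hσ.2.1
    · rw [hker]; exact hσ.2.2
  · have hker : (e.toMonoidHom.comp σ).ker = σ.ker := by
      ext x
      simp [MonoidHom.mem_ker]
    exact ⟨(MulEquiv.subgroupCongr hker).trans k⟩
  · intro Γ _ _ σ hσ
    have hker : (e.symm.toMonoidHom.comp σ).ker = σ.ker := by
      ext x
      simp [MonoidHom.mem_ker]
    obtain ⟨π, hπ⟩ := h2 Γ (e.symm.toMonoidHom.comp σ) (by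
      refine ⟨e.symm.surjective.comp hσ.1, ?_, ?_⟩
      · rw [hker]; exact hσ.2.1
      · rw [hker]; exact hσ.2.2)
    refine ⟨(MulEquiv.subgroupCongr hker).toMonoidHom.comp π, ?_⟩
    exact (MulEquiv.subgroupCongr hker).surjective.comp hπ

end transfer

section gen

open Cfsg.Agent.Lib.KnownSimple.Lab Cfsg.Agent.Lib.KnownSimple.LabMat

variable {F : Type*} [Field F] {φ : ℕ → F} {add mul : ℕ → ℕ → ℕ}
variable {G : Type*} [Group G] {d : ℕ}
  (ι : G →* Matrix (Fin d) (Fin d) F) {L : List (List ℕ)} {γ : ℕ → G} {k : ℕ}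

theorem gen_eq_one (hι : Function.Injective ι) (hadd : ∀ a b, φ (add a b) = φ a + φ b)
    (hmul : ∀ a b, φ (mul a b) = φ a * φ b)
    (h0 : φ 0 = 0) (h1 : φ 1 = 1) (hγ : ∀ a < k, ι (γ a) = toM φ d (L.getD a []))
    (w : List ℕ) (hw : ∀ a ∈ w, a < k) (h : (wordC add mul d L w == idC d) = true) : wval γ w = 1 := by
  apply hι
  rw [map_one]
  have h2 := wval_toM ι hadd hmul h0 h1 hγ w hw
  rw [h2, eq_of_beq h, toM_idC h0 h1]

theorem gen_ne_one {q : ℕ} (hadd : ∀ a b, φ (add a b) = φ a + φ b)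
    (hmul : ∀ a b, φ (mul a b) = φ a * φ b)
    (h0 : φ 0 = 0) (h1 : φ 1 = 1) (hinj : ∀ x y, x < q → y < q → φ x = φ y → x = y)
    (hγ : ∀ a < k, ι (γ a) = toM φ d (L.getD a []))
    (w : List ℕ) (hw : ∀ a ∈ w, a < k) (h : chkNE d q (wordC add mul d L w) (idC d) = true) :
    wval γ w ≠ 1 := by
  intro e
  have h2 := wval_toM ι hadd hmul h0 h1 hγ w hw
  rw [e, map_one, ← toM_idC h0 h1 d] at h2
  exact toM_ne hinj h h2.symm

end gen

end Cfsg.Agent.Lib.KnownSimple.SzGen
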